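import Cfsg.Agent.Lib.SchurMult.FieldPairing
import Cfsg.Agent.Lib.SchurMult.CentralComm

/-!
Central extensions over a unipotent group with a torus: a chain of normal subgroups with one-dimensional layers,
scaled by torus characters, has a torus-invariant section as soon as the characters of any two layers are
separated by the torus, or the lifts of the two layers are known to be compatible for another reason.
-/

set_option autoImplicit false
set_option linter.unusedSectionVars false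
set_option linter.style.haveILetI false

namespace CfsgLib.ReeFourMult

open scoped commutatorElement

universe u v w

variable {Γ : Type u} {G : Type v} {K : Type w} [Group Γ] [Group G] [Field K]

/-- A chain with one-dimensional layers scaled by a torus. -/
structure Chain (U : ℕ → Subgroup G) (hd : ℕ → G → K) (T : Subgroup G) (χ : ℕ → G → K) (n : ℕ) : Prop where
  /-- the last term -/
  bot : U n = ⊥
  /-- descending -/
  le : ∀ k < n, U (k + 1) ≤ U k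
  /-- descending from the first term -/
  le0 : ∀ k ≤ n, U k ≤ U 0
  /-- central series -/
  comm : ∀ k < n, ∀ g ∈ U 0, ∀ h ∈ U k, g * h * g⁻¹ * h⁻¹ ∈ U (k + 1)
  /-- the head is additive -/
  add : ∀ k < n, ∀ g ∈ U k, ∀ h ∈ U k, hd k (g * h) = hd k g + hd k h
  /-- the kernel of the head -/
  zero : ∀ k < n, ∀ g ∈ U k, (hd k g = 0 ↔ g ∈ U (k + 1))
  /-- the head is surjective -/
  surj : ∀ k < n, ∀ a : K, ∃ g ∈ U k, hd k g = a
  /-- the torus scales the head -/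
  scale : ∀ k < n, ∀ t ∈ T, ∀ g ∈ U k, t * g * t⁻¹ ∈ U k ∧ hd k (t * g * t⁻¹) = χ k t * hd k g
  /-- every scalar occurs -/
  char_surj : ∀ k < n, ∀ c : K, c ≠ 0 → ∃ t ∈ T, χ k t = c
  /-- the torus is abelian -/
  torus_comm : ∀ s ∈ T, ∀ t ∈ T, s * t = t * s

variable (σ : Γ →* G)

/-- A torus-invariant section over `V`. -/
structure IsSec (T V : Subgroup G) (C : Subgroup Γ) : Prop where
  /-- in the preimage -/
  le : ∀ c ∈ C, σ c ∈ V
  /-- onto -/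
  onto : ∀ g ∈ V, ∃ c ∈ C, σ c = g
  /-- one to one -/
  triv : ∀ c ∈ C, σ c = 1 → c = 1
  /-- invariant under the torus -/
  inv : ∀ t : Γ, σ t ∈ T → ∀ c ∈ C, t * c * t⁻¹ ∈ C

variable {σ}

/-- Conjugation by the lifts over layer `k` keeps the elements of `C` over layer `j`. -/
def Stable (σ : Γ →* G) (U : ℕ → Subgroup G) (C : Subgroup Γ) (k j : ℕ) : Prop :=
  ∀ x : Γ, σ x ∈ U k → ∀ c ∈ C, σ c ∈ U j → x * c * x⁻¹ ∈ C

variable {U : ℕ → Subgroup G} {hd : ℕ → G → K} {T : Subgroup G} {χ : ℕ → G → K} {n : ℕ}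
  (H : Chain U hd T χ n)

include H

theorem Chain.le_of_le {i j : ℕ} (hij : i ≤ j) (hj : j ≤ n) : U j ≤ U i := by
  induction hij with
  | refl => exact le_rfl
  | step h ih => exact (H.le _ (by omega)).trans (ih (by omega))

theorem Chain.hd_one {k : ℕ} (hk : k < n) : hd k 1 = 0 := (H.zero k hk 1 (one_mem _)).2 (one_mem _)

theorem Chain.hd_inv {k : ℕ} (hk : k < n) {g : G} (hg : g ∈ U k) : hd k g⁻¹ = -hd k g := by
  have := H.add k hk g hg g⁻¹ (inv_mem hg)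
  rw [mul_inv_cancel, H.hd_one hk] at this
  exact eq_neg_of_add_eq_zero_right this.symm

/-- Same head: the quotient lies in the next term. -/
theorem Chain.div_mem {k : ℕ} (hk : k < n) {g h : G} (hg : g ∈ U k) (hh : h ∈ U k) (e : hd k g = hd k h) :
    g⁻¹ * h ∈ U (k + 1) :=
  (H.zero k hk _ (mul_mem (inv_mem hg) hh)).1 (by
    rw [H.add k hk _ (inv_mem hg) _ hh, H.hd_inv hk hg, e, neg_add_cancel])

theorem Chain.conj_mem {k : ℕ} (hk : k < n) {g h : G} (hg : g ∈ U 0) (hh : h ∈ U k) : g * h * g⁻¹ ∈ U k := by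
  have := mul_mem (H.le k hk (H.comm k hk g hg h hh)) hh
  rwa [inv_mul_cancel_right] at this

omit H in
theorem IsSec.eq_of_map_eq {V : Subgroup G} {C : Subgroup Γ} (hC : IsSec σ T V C) {a b : Γ} (ha : a ∈ C)
    (hb : b ∈ C) (e : σ a = σ b) : a = b := by
  have := hC.triv (a⁻¹ * b) (mul_mem (inv_mem ha) hb) (by rw [map_mul, map_inv, e, inv_mul_cancel])
  exact inv_mul_eq_one.1 this

omit H in
/-- The kernel component over a section. -/
theorem exists_ker_part {V : Subgroup G} {C : Subgroup Γ} (hC : IsSec σ T V C) {g : Γ} (hg : σ g ∈ V) :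
    ∃ z, σ z = 1 ∧ z⁻¹ * g ∈ C := by
  obtain ⟨c, hc, e⟩ := hC.onto _ hg
  exact ⟨g * c⁻¹, by rw [map_mul, map_inv, e, mul_inv_cancel], by simpa [mul_assoc] using hc⟩

omit H in
/-- A central element is unchanged by conjugation. -/
theorem conj_ker (hc : σ.ker ≤ Subgroup.center Γ) {z : Γ} (hz : σ z = 1) (g : Γ) : g * z = z * g :=
  Subgroup.mem_center_iff.1 (hc hz) g

section layer

variable (hc : σ.ker ≤ Subgroup.center Γ) {k : ℕ} (hk : k < n) {C : Subgroup Γ}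
  (hC : IsSec σ T (U (k + 1)) C)
include hc hk hC

/-- `x · C · x⁻¹ ⊆ C` holds if it holds for the kernel component of conjugates. -/
theorem ker_part_unique {g z z' : Γ} (hz : σ z = 1) (hz' : σ z' = 1) (h : z⁻¹ * g ∈ C) (h' : z'⁻¹ * g ∈ C) :
    z = z' := by
  have e := hC.eq_of_map_eq h h' (by simp [hz, hz'])
  exact inv_injective (mul_right_cancel e)

/-- The next step down: stability at `j` from stability at `j + 1` and a separating torus element. -/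
theorem stable_of_sep {j : ℕ} (hj : k < j) (hjn : j < n) (hprev : Stable σ U C k (j + 1))
    (hsep : ∃ t ∈ T, (χ j t = 1 ∧ χ k t ≠ 1) ∨ (χ k t = 1 ∧ χ j t ≠ 1)) (hσ : Function.Surjective σ) :
    Stable σ U C k j := by
  classical
  obtain ⟨t₀, ht₀, hsep⟩ := hsep
  obtain ⟨t, rfl⟩ := hσ t₀
  have hjk : U j ≤ U (k + 1) := H.le_of_le hj hjn.le
  have hk0 : U k ≤ U 0 := H.le0 k hk.le
  -- the kernel part
  have hmem : ∀ x : Γ, σ x ∈ U k → ∀ c ∈ C, σ c ∈ U j → σ (x * c * x⁻¹) ∈ U j := fun x hx c _ hcj => by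
    simpa using H.conj_mem hjn (hk0 hx) hcj
  have hex : ∀ x : Γ, σ x ∈ U k → ∀ c ∈ C, σ c ∈ U j → ∃ z, σ z = 1 ∧ z⁻¹ * (x * c * x⁻¹) ∈ C :=
    fun x hx c hcC hcj => exists_ker_part hC (hjk (hmem x hx c hcC hcj))
  choose! Z hZ1 hZ2 using hex
  have huniq : ∀ x c z, σ x ∈ U k → c ∈ C → σ c ∈ U j → σ z = 1 → z⁻¹ * (x * c * x⁻¹) ∈ C → Z x c = z :=
    fun x c z hx hcC hcj hz h => ker_part_unique H hc hk hC (hZ1 x hx c hcC hcj) hz (hZ2 x hx c hcC hcj) h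
  -- multiplicativity in the second argument
  have hmulc : ∀ x c d, σ x ∈ U k → c ∈ C → σ c ∈ U j → d ∈ C → σ d ∈ U j →
      Z x (c * d) = Z x c * Z x d := by
    intro x c d hx hcC hcj hdC hdj
    refine huniq x _ _ hx (mul_mem hcC hdC) (by rw [map_mul]; exact mul_mem hcj hdj)
      (by rw [map_mul, hZ1 x hx c hcC hcj, hZ1 x hx d hdC hdj, one_mul]) ?_
    have h1 := mul_mem (hZ2 x hx c hcC hcj) (hZ2 x hx d hdC hdj)
    convert h1 using 1
    have e := conj_ker hc (hZ1 x hx d hdC hdj)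
    calc (Z x c * Z x d)⁻¹ * (x * (c * d) * x⁻¹)
        = (Z x d)⁻¹ * ((Z x c)⁻¹ * (x * c * x⁻¹)) * (x * d * x⁻¹) := by group
      _ = (Z x c)⁻¹ * (x * c * x⁻¹) * ((Z x d)⁻¹ * (x * d * x⁻¹)) := by
          rw [← (show Commute ((Z x c)⁻¹ * (x * c * x⁻¹)) (Z x d) from e _).inv_right.eq]; group
  have hnext : ∀ x d, σ x ∈ U k → d ∈ C → σ d ∈ U (j + 1) → Z x d = 1 := fun x d hx hdC hdj =>
    huniq x d 1 hx hdC (H.le j hjn hdj) (map_one σ) (by simpa using hprev x hx d hdC hdj)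
  -- multiplicativity in the first argument
  have hmulx : ∀ x y c, σ x ∈ U k → σ y ∈ U k → c ∈ C → σ c ∈ U j → Z (x * y) c = Z x c * Z y c := by
    intro x y c hx hy hcC hcj
    set c' := (Z y c)⁻¹ * (y * c * y⁻¹) with hc'
    have hc'C : c' ∈ C := hZ2 y hy c hcC hcj
    have hσc' : σ c' = σ y * σ c * (σ y)⁻¹ := by simp [hc', hZ1 y hy c hcC hcj]
    have hc'j : σ c' ∈ U j := by rw [hσc']; exact H.conj_mem hjn (hk0 hy) hcj
    have hd : σ (c' * c⁻¹) ∈ U (j + 1) := by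
      rw [map_mul, map_inv, hσc']; exact H.comm j hjn _ (hk0 hy) _ hcj
    have hxc : Z x c' = Z x c := by
      have h1 := hmulc x (c' * c⁻¹) c hx (mul_mem hc'C (inv_mem hcC)) (H.le j hjn hd) hcC hcj
      rwa [inv_mul_cancel_right, hnext x _ hx (mul_mem hc'C (inv_mem hcC)) hd, one_mul] at h1
    refine huniq _ c _ (by rw [map_mul]; exact mul_mem hx hy) hcC hcj
      (by rw [map_mul, hZ1 x hx c hcC hcj, hZ1 y hy c hcC hcj, one_mul]) ?_
    have h1 := hZ2 x hx c' hc'C hc'j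
    rw [hxc] at h1
    convert h1 using 1
    have e := conj_ker hc (hZ1 y hy c hcC hcj) x
    rw [hc']
    calc (Z x c * Z y c)⁻¹ * (x * y * c * (x * y)⁻¹)
        = (Z y c)⁻¹ * (Z x c)⁻¹ * x * (y * c * y⁻¹) * x⁻¹ := by group
      _ = (Z x c)⁻¹ * ((Z y c)⁻¹ * x) * (y * c * y⁻¹) * x⁻¹ := by
          rw [← (show Commute (Z x c)⁻¹ (Z y c) from
            conj_ker hc (hZ1 y hy c hcC hcj) _).inv_right.eq]
          group
      _ = (Z x c)⁻¹ * (x * (Z y c)⁻¹) * (y * c * y⁻¹) * x⁻¹ := by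
          rw [(show Commute x (Z y c) from e).inv_right.eq]
      _ = _ := by group
  -- invariance under the torus
  have hinv : ∀ x c, σ x ∈ U k → c ∈ C → σ c ∈ U j → Z (t * x * t⁻¹) (t * c * t⁻¹) = Z x c := by
    intro x c hx hcC hcj
    refine huniq _ _ _ (by simpa using (H.scale k hk _ ht₀ _ hx).1) (hC.inv t ht₀ c hcC)
      (by simpa using (H.scale j hjn _ ht₀ _ hcj).1) (hZ1 x hx c hcC hcj) ?_
    have h1 := hC.inv t ht₀ _ (hZ2 x hx c hcC hcj)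
    convert h1 using 1
    have e := conj_ker hc (hZ1 x hx c hcC hcj) t
    calc (Z x c)⁻¹ * (t * x * t⁻¹ * (t * c * t⁻¹) * (t * x * t⁻¹)⁻¹)
        = ((Z x c)⁻¹ * t) * (x * c * x⁻¹) * t⁻¹ := by group
      _ = (t * (Z x c)⁻¹) * (x * c * x⁻¹) * t⁻¹ := by rw [(show Commute t (Z x c) from e).inv_right.eq]
      _ = _ := by group
  intro x hx c hcC hcj
  suffices h : Z x c = 1 by simpa [h] using hZ2 x hx c hcC hcj
  have hkz : ∀ x c, σ x ∈ U (k + 1) → c ∈ C → σ c ∈ U j → Z x c = 1 := by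
    intro x c hx hcC hcj
    obtain ⟨d, hd, e⟩ := hC.onto _ hx
    obtain ⟨z, hz, rfl⟩ : ∃ z, σ z = 1 ∧ x = z * d := ⟨x * d⁻¹, by simp [e], by group⟩
    refine huniq _ c 1 (H.le k hk hx) hcC hcj (map_one σ) ?_
    have h1 := mul_mem (mul_mem hd hcC) (inv_mem hd)
    convert h1 using 1
    have e := conj_ker hc hz (d * c * d⁻¹)
    calc 1⁻¹ * (z * d * c * (z * d)⁻¹) = (z * (d * c * d⁻¹)) * z⁻¹ := by group
      _ = d * c * d⁻¹ := by rw [← e, mul_inv_cancel_right]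
  rcases hsep with ⟨hj1, hk1⟩ | ⟨hk1, hj1⟩
  · obtain ⟨g, hg, hga⟩ := H.surj k hk (hd k (σ x) / (χ k (σ t) - 1))
    obtain ⟨y, rfl⟩ := hσ g
    have hty : σ (t * y * t⁻¹) ∈ U k := by simpa using (H.scale k hk _ ht₀ _ hg).1
    set w := t * y * t⁻¹ * y⁻¹ with hw
    have hwk : σ w ∈ U k := by rw [hw, map_mul, map_inv]; exact mul_mem hty (inv_mem hg)
    have hhd : hd k (σ w) = hd k (σ x) := by
      have e1 : σ w = σ t * σ y * (σ t)⁻¹ * (σ y)⁻¹ := by simp [hw]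
      rw [e1, H.add k hk _ (H.scale k hk _ ht₀ _ hg).1 _ (inv_mem hg), H.hd_inv hk hg,
        (H.scale k hk _ ht₀ _ hg).2, hga]
      have h2 : χ k (σ t) - 1 ≠ 0 := sub_ne_zero.2 hk1
      field_simp
      ring
    have hrest : σ (w⁻¹ * x) ∈ U (k + 1) := by
      rw [map_mul, map_inv]; exact H.div_mem hk hwk hx hhd
    have hyinv : σ y⁻¹ ∈ U k := by rw [map_inv]; exact inv_mem hg
    have e1 : Z (y⁻¹) c * Z y c = 1 := by
      rw [← hmulx _ _ c hyinv hg hcC hcj, inv_mul_cancel]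
      exact huniq 1 c 1 (by simp) hcC hcj (map_one σ) (by simpa using hcC)
    have hty' : Z (t * y * t⁻¹) c = Z y c := by
      have hc2 := hC.inv t ht₀ c hcC
      have hc2j : σ (t * c * t⁻¹) ∈ U j := by simpa using (H.scale j hjn _ ht₀ _ hcj).1
      have hd' : σ ((t * c * t⁻¹)⁻¹ * c) ∈ U (j + 1) := by
        rw [map_mul, map_inv]
        refine H.div_mem hjn hc2j hcj ?_
        have := (H.scale j hjn _ ht₀ _ hcj).2
        rw [hj1, one_mul] at this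
        simpa using this
      have := hmulc _ (t * c * t⁻¹) ((t * c * t⁻¹)⁻¹ * c) hty hc2 hc2j (mul_mem (inv_mem hc2) hcC)
        (H.le j hjn hd')
      rw [mul_inv_cancel_left, hnext _ _ hty (mul_mem (inv_mem hc2) hcC) hd', mul_one, hinv y c hg hcC hcj] at this
      exact this
    calc Z x c = Z (w * (w⁻¹ * x)) c := by rw [mul_inv_cancel_left]
      _ = Z w c * Z (w⁻¹ * x) c := hmulx _ _ c hwk (H.le k hk hrest) hcC hcj
      _ = Z w c := by rw [hkz _ c hrest hcC hcj, mul_one]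
      _ = 1 := by
          rw [hw, hmulx _ _ c hty hyinv hcC hcj, hty']
          exact mul_eq_one_comm.1 e1
  · obtain ⟨g, hg, hga⟩ := H.surj j hjn (hd j (σ c) / (χ j (σ t) - 1))
    obtain ⟨d, hd0, rfl⟩ := hC.onto g (hjk hg)
    have htd : t * d * t⁻¹ ∈ C := hC.inv t ht₀ d hd0
    have htdj : σ (t * d * t⁻¹) ∈ U j := by simpa using (H.scale j hjn _ ht₀ _ hg).1
    set e := t * d * t⁻¹ * d⁻¹ with he
    have heC : e ∈ C := mul_mem htd (inv_mem hd0)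
    have hej : σ e ∈ U j := by rw [he, map_mul, map_inv]; exact mul_mem htdj (inv_mem hg)
    have hhd : hd j (σ e) = hd j (σ c) := by
      have e1 : σ e = σ t * σ d * (σ t)⁻¹ * (σ d)⁻¹ := by simp [he]
      rw [e1, H.add j hjn _ (H.scale j hjn _ ht₀ _ hg).1 _ (inv_mem hg), H.hd_inv hjn hg,
        (H.scale j hjn _ ht₀ _ hg).2, hga]
      have h2 : χ j (σ t) - 1 ≠ 0 := sub_ne_zero.2 hj1
      field_simp
      ring
    have hrest : σ (e⁻¹ * c) ∈ U (j + 1) := by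
      rw [map_mul, map_inv]; exact H.div_mem hjn hej hcj hhd
    have hdi : d⁻¹ ∈ C ∧ σ d⁻¹ ∈ U j := ⟨inv_mem hd0, by rw [map_inv]; exact inv_mem hg⟩
    have e1 : Z x d⁻¹ * Z x d = 1 := by
      rw [← hmulc x _ _ hx hdi.1 hdi.2 hd0 hg, inv_mul_cancel]
      exact huniq x 1 1 hx (one_mem _) (by simp) (map_one σ) (by simp)
    have htxk : σ (t * x * t⁻¹) ∈ U k := by simpa using (H.scale k hk _ ht₀ _ hx).1
    have htd' : Z x (t * d * t⁻¹) = Z x d := by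
      have hd' : σ ((t * x * t⁻¹)⁻¹ * x) ∈ U (k + 1) := by
        rw [map_mul, map_inv]
        refine H.div_mem hk htxk hx ?_
        have := (H.scale k hk _ ht₀ _ hx).2
        rw [hk1, one_mul] at this
        simpa using this
      have := hmulx (t * x * t⁻¹) ((t * x * t⁻¹)⁻¹ * x) (t * d * t⁻¹) htxk (H.le k hk hd') htd htdj
      rw [mul_inv_cancel_left, hkz _ _ hd' htd htdj, mul_one, hinv x d hx hd0 hg] at this
      exact this
    calc Z x c = Z x (e * (e⁻¹ * c)) := by rw [mul_inv_cancel_left]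
      _ = Z x e * Z x (e⁻¹ * c) := hmulc x _ _ hx heC hej (mul_mem (inv_mem heC) hcC) (H.le j hjn hrest)
      _ = Z x e := by rw [hnext x _ hx (mul_mem (inv_mem heC) hcC) hrest, mul_one]
      _ = 1 := by
          rw [he, hmulc x _ _ hx htd htdj hdi.1 hdi.2, htd']
          exact mul_eq_one_comm.1 e1

/-- The next step down: stability at `j` from stability at `j + 1` on representatives. -/
theorem stable_of_reps {j : ℕ} (hj : k < j) (hjn : j < n) (hprev : Stable σ U C k (j + 1))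
    (P Q : Set G)
    (hP : ∀ a : K, ∃ g ∈ P, g ∈ U k ∧ hd k g = a) (hQ : ∀ b : K, ∃ g ∈ Q, g ∈ U j ∧ hd j g = b)
    (hPQ : ∀ x : Γ, σ x ∈ P → ∀ c ∈ C, σ c ∈ Q → x * c * x⁻¹ ∈ C) : Stable σ U C k j := by
  intro x hx c hcC hcj
  have hjk : U j ≤ U (k + 1) := H.le_of_le hj hjn.le
  -- the first argument may be moved
  obtain ⟨g, hgP, hg, hga⟩ := hP (hd k (σ x))
  obtain ⟨d₁, hd₁, e₁⟩ := hC.onto _ (H.div_mem hk hg hx hga)
  set x₀ := x * d₁⁻¹ with hx₀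
  have hσx₀ : σ x₀ = g := by simp [hx₀, e₁]
  -- the second argument may be moved
  have hd' : σ (d₁ * c * d₁⁻¹) ∈ U j := by
    simpa using H.conj_mem hjn (H.le0 k hk.le (H.le k hk (hC.le _ hd₁))) hcj
  set c₁ := d₁ * c * d₁⁻¹ with hc₁
  have hc₁C : c₁ ∈ C := mul_mem (mul_mem hd₁ hcC) (inv_mem hd₁)
  have hc₁j : σ c₁ ∈ U j := hd'
  obtain ⟨b, hbQ, hb, hbb⟩ := hQ (hd j (σ c₁))
  obtain ⟨d₂, hd₂, rfl⟩ := hC.onto b (hjk hb)
  have hrest : σ (d₂⁻¹ * c₁) ∈ U (j + 1) := by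
    rw [map_mul, map_inv]; exact H.div_mem hjn hb hc₁j hbb
  have h1 := mul_mem (hPQ x₀ (hσx₀ ▸ hgP) d₂ hd₂ hbQ)
    (hprev x₀ (hσx₀ ▸ hg) _ (mul_mem (inv_mem hd₂) hc₁C) hrest)
  have e : x₀ * d₂ * x₀⁻¹ * (x₀ * (d₂⁻¹ * c₁) * x₀⁻¹) = x * c * x⁻¹ := by
    rw [hc₁, hx₀]; group
  rwa [e] at h1

/-- The next step down: layer `j` is reached by commutators in the next term. -/
theorem stable_of_commutators {j : ℕ} (hj : k < j) (hjn : j < n) (hprev : Stable σ U C k (j + 1))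
    (hcomm : ∀ b : K, ∃ g ∈ U (k + 1), ∃ h ∈ U (k + 1),
      g * h * g⁻¹ * h⁻¹ ∈ U j ∧ hd j (g * h * g⁻¹ * h⁻¹) = b) : Stable σ U C k j := by
  intro x hx c hcC hcj
  obtain ⟨g, hg, h, hh, hgh, hb⟩ := hcomm (hd j (σ c))
  obtain ⟨a, ha, rfl⟩ := hC.onto g hg
  obtain ⟨b, hb', rfl⟩ := hC.onto h hh
  have habC : ⁅a, b⁆ ∈ C := by
    rw [commutatorElement_def]
    exact mul_mem (mul_mem (mul_mem ha hb') (inv_mem ha)) (inv_mem hb')
  have hrest : σ (⁅a, b⁆⁻¹ * c) ∈ U (j + 1) := by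
    rw [map_mul, map_inv, commutatorElement_def]
    simp only [map_mul, map_inv]
    exact H.div_mem hjn hgh hcj hb
  have hconj : ∀ u ∈ C, σ u ∈ U (k + 1) → ∃ u' ∈ C, σ (x * u * x⁻¹) = σ u' := fun u _ hu => by
    obtain ⟨u', hu', e⟩ := hC.onto (σ x * σ u * (σ x)⁻¹)
      (mul_mem_cancel_right (inv_mem hu) |>.1 (H.le (k + 1) (by omega) (H.comm (k + 1) (by omega) _ (H.le0 k hk.le hx) _ hu)))
    exact ⟨u', hu', by simp [e]⟩
  obtain ⟨a', ha', ea⟩ := hconj a ha hg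
  obtain ⟨b', hb'', eb⟩ := hconj b hb' hh
  have h1 : x * ⁅a, b⁆ * x⁻¹ = ⁅a', b'⁆ := by
    rw [conjugate_commutatorElement]
    exact CfsgLib.SchurMult.comm_eq_of_map_eq hc ea eb
  have h2 : ⁅a', b'⁆ ∈ C := by
    rw [commutatorElement_def]
    exact mul_mem (mul_mem (mul_mem ha' hb'') (inv_mem ha')) (inv_mem hb'')
  have h3 := mul_mem (h1 ▸ h2) (hprev x hx _ (mul_mem (inv_mem habC) hcC) hrest)
  rwa [show x * ⁅a, b⁆ * x⁻¹ * (x * (⁅a, b⁆⁻¹ * c) * x⁻¹) = x * c * x⁻¹ by group] at h3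

end layer

/-- One layer more. -/
theorem exists_sec_step [Fintype K] (h4 : Fintype.card K ≠ 4) (h9 : Fintype.card K ≠ 9) (h2 : 2 < Fintype.card K)
    (hc : σ.ker ≤ Subgroup.center Γ) (hσ : Function.Surjective σ) {k : ℕ} (hk : k < n) {C : Subgroup Γ}
    (hC : IsSec σ T (U (k + 1)) C) (hst : Stable σ U C k (k + 1)) :
    ∃ C', IsSec σ T (U k) C' := by
  classical
  have hnorm : ∀ x : Γ, σ x ∈ U k → ∀ c ∈ C, x * c * x⁻¹ ∈ C := fun x hx c hcC => hst x hx c hcC (hC.le c hcC)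
  have hk0 : U k ≤ U 0 := H.le0 k hk.le
  have hcomm' : ∀ x y : Γ, σ x ∈ U k → σ y ∈ U k → σ ⁅x, y⁆ ∈ U (k + 1) := fun x y hx hy => by
    simpa [commutatorElement_def] using H.comm k hk _ (hk0 hx) _ hy
  -- the commutator pairing of the layer
  have hex : ∀ x y : Γ, σ x ∈ U k → σ y ∈ U k → ∃ z, σ z = 1 ∧ z⁻¹ * ⁅x, y⁆ ∈ C :=
    fun x y hx hy => exists_ker_part hC (hcomm' x y hx hy)
  choose! Z hZ1 hZ2 using hex
  have huniq : ∀ x y z, σ x ∈ U k → σ y ∈ U k → σ z = 1 → z⁻¹ * ⁅x, y⁆ ∈ C → Z x y = z :=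
    fun x y z hx hy hz h => ker_part_unique H hc hk hC (hZ1 x y hx hy) hz (hZ2 x y hx hy) h
  have hswap : ∀ x y, σ x ∈ U k → σ y ∈ U k → Z y x = (Z x y)⁻¹ := by
    intro x y hx hy
    refine huniq y x _ hy hx (by rw [map_inv, hZ1 x y hx hy, inv_one]) ?_
    rw [inv_inv, ← commutatorElement_inv]
    have h1 := inv_mem (hZ2 x y hx hy)
    rwa [mul_inv_rev, inv_inv, conj_ker hc (hZ1 x y hx hy) ⁅x, y⁆⁻¹] at h1
  have hmul : ∀ x y w, σ x ∈ U k → σ y ∈ U k → σ w ∈ U k → Z (x * y) w = Z x w * Z y w := by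
    intro x y w hx hy hw
    refine huniq _ _ _ (by rw [map_mul]; exact mul_mem hx hy) hw
      (by rw [map_mul, hZ1 x w hx hw, hZ1 y w hy hw, one_mul]) ?_
    have h1 := mul_mem (hnorm x hx _ (hZ2 y w hy hw)) (hZ2 x w hx hw)
    convert h1 using 1
    have e2 := conj_ker hc (hZ1 y w hy hw)
    have e3 := conj_ker hc (hZ1 x w hx hw)
    calc (Z x w * Z y w)⁻¹ * ⁅x * y, w⁆
        = (Z y w)⁻¹ * ((Z x w)⁻¹ * (x * ⁅y, w⁆ * x⁻¹)) * ⁅x, w⁆ := by
          simp only [commutatorElement_def]; group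
      _ = (Z y w)⁻¹ * (x * ⁅y, w⁆ * x⁻¹) * ((Z x w)⁻¹ * ⁅x, w⁆) := by
          rw [← (show Commute (x * ⁅y, w⁆ * x⁻¹) (Z x w) from e3 _).inv_right.eq]; group
      _ = x * ((Z y w)⁻¹ * ⁅y, w⁆) * x⁻¹ * ((Z x w)⁻¹ * ⁅x, w⁆) := by
          congr 1
          calc (Z y w)⁻¹ * (x * ⁅y, w⁆ * x⁻¹) = ((Z y w)⁻¹ * x) * ⁅y, w⁆ * x⁻¹ := by group
            _ = _ := by rw [← (show Commute x (Z y w) from e2 x).inv_right.eq]; group
  have hrest : ∀ x y, σ x ∈ U (k + 1) → σ y ∈ U k → Z x y = 1 := by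
    intro x y hx hy
    obtain ⟨d, hd0, e⟩ := hC.onto _ hx
    refine huniq x y 1 (H.le k hk hx) hy (map_one σ) ?_
    rw [inv_one, one_mul, CfsgLib.SchurMult.comm_eq_of_map_eq hc (a' := d) (b' := y) e.symm rfl,
      commutatorElement_def, show d * y * d⁻¹ * y⁻¹ = d * (y * d⁻¹ * y⁻¹) by group]
    exact mul_mem hd0 (hnorm y hy _ (inv_mem hd0))
  have hdep : ∀ x x' y, σ x ∈ U k → σ x' ∈ U k → σ y ∈ U k → hd k (σ x) = hd k (σ x') → Z x y = Z x' y := by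
    intro x x' y hx hx' hy e
    have hr : σ (x⁻¹ * x') ∈ U (k + 1) := by rw [map_mul, map_inv]; exact H.div_mem hk hx hx' e
    have := hmul x (x⁻¹ * x') y hx (H.le k hk hr) hy
    rw [mul_inv_cancel_left, hrest _ _ hr hy, mul_one] at this
    exact this.symm
  have hdep' : ∀ x y y', σ x ∈ U k → σ y ∈ U k → σ y' ∈ U k → hd k (σ y) = hd k (σ y') → Z x y = Z x y' := by
    intro x y y' hx hy hy' e
    rw [hswap y x hy hx, hswap y' x hy' hx, hdep y y' x hy hy' hx e]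
  have hL : ∀ a : K, ∃ x : Γ, σ x ∈ U k ∧ hd k (σ x) = a := fun a => by
    obtain ⟨g, hg, e⟩ := H.surj k hk a
    obtain ⟨x, rfl⟩ := hσ g
    exact ⟨x, hg, e⟩
  choose L hL1 hL2 using hL
  have hzmem : ∀ a b, Z (L a) (L b) ∈ σ.ker := fun a b => hZ1 _ _ (hL1 a) (hL1 b)
  letI : CommGroup σ.ker :=
    { mul_comm := fun a b => Subtype.ext (Subgroup.mem_center_iff.1 (hc b.2) (a : Γ)) }
  let e : K → K → Additive σ.ker := fun a b => Additive.ofMul (⟨_, hzmem a b⟩ : σ.ker)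
  have hLmul : ∀ a b, hd k (σ (L a * L b)) = a + b := fun a b => by
    rw [map_mul, H.add k hk _ (hL1 a) _ (hL1 b), hL2, hL2]
  have hLkm : ∀ a b, σ (L a * L b) ∈ U k := fun a b => by rw [map_mul]; exact mul_mem (hL1 a) (hL1 b)
  have hl : ∀ a b c, e (a + b) c = e a c + e b c := fun a b c => by
    refine congrArg Additive.ofMul (Subtype.ext ?_)
    show Z (L (a + b)) (L c) = Z (L a) (L c) * Z (L b) (L c)
    rw [hdep _ (L a * L b) _ (hL1 _) (hLkm a b) (hL1 c) (by rw [hL2, hLmul]),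
      hmul _ _ _ (hL1 a) (hL1 b) (hL1 c)]
  have hr : ∀ a b c, e a (b + c) = e a b + e a c := fun a b c => by
    refine congrArg Additive.ofMul (Subtype.ext ?_)
    show Z (L a) (L (b + c)) = Z (L a) (L b) * Z (L a) (L c)
    rw [hdep' _ (L (b + c)) (L b * L c) (hL1 a) (hL1 _) (hLkm b c) (by rw [hL2, hLmul]),
      hswap (L b * L c) (L a) (hLkm b c) (hL1 a), hmul _ _ _ (hL1 b) (hL1 c) (hL1 a),
      hswap (L a) (L b) (hL1 a) (hL1 b), hswap (L a) (L c) (hL1 a) (hL1 c), mul_inv_rev, inv_inv, inv_inv]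
    exact (conj_ker hc (hZ1 _ _ (hL1 a) (hL1 b)) _)
  have halt : ∀ a, e a a = 0 := fun a => by
    refine congrArg Additive.ofMul (Subtype.ext ?_)
    show Z (L a) (L a) = 1
    exact huniq _ _ 1 (hL1 a) (hL1 a) (map_one σ) (by simp)
  have hinv : ∀ s : K, s ≠ 0 → IsSquare s → ∀ a b, e (s * a) (s * b) = e a b := fun s hs _ a b => by
    obtain ⟨t₀, ht₀, hts⟩ := H.char_surj k hk s hs
    obtain ⟨t, rfl⟩ := hσ t₀
    have hm : ∀ a, σ (t * L a * t⁻¹) ∈ U k ∧ hd k (σ (t * L a * t⁻¹)) = s * a := fun a => by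
      have := H.scale k hk _ ht₀ _ (hL1 a)
      simp only [map_mul, map_inv]
      exact ⟨this.1, by rw [this.2, hts, hL2]⟩
    refine congrArg Additive.ofMul (Subtype.ext ?_)
    show Z (L (s * a)) (L (s * b)) = Z (L a) (L b)
    rw [hdep _ (t * L a * t⁻¹) _ (hL1 _) (hm a).1 (hL1 _) (by rw [hL2, (hm a).2]),
      hdep' _ (L (s * b)) (t * L b * t⁻¹) (hm a).1 (hL1 _) (hm b).1 (by rw [hL2, (hm b).2])]
    refine huniq _ _ _ (hm a).1 (hm b).1 (hZ1 _ _ (hL1 a) (hL1 b)) ?_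
    have h1 := hC.inv t ht₀ _ (hZ2 _ _ (hL1 a) (hL1 b))
    convert h1 using 1
    rw [← conjugate_commutatorElement]
    have e := conj_ker hc (hZ1 _ _ (hL1 a) (hL1 b)) t
    calc (Z (L a) (L b))⁻¹ * (t * ⁅L a, L b⁆ * t⁻¹) = ((Z (L a) (L b))⁻¹ * t) * ⁅L a, L b⁆ * t⁻¹ := by group
      _ = _ := by rw [← (show Commute t (Z (L a) (L b)) from e).inv_right.eq]; group
  have hcommC : ∀ x y, σ x ∈ U k → σ y ∈ U k → ⁅x, y⁆ ∈ C := by
    intro x y hx hy
    have h0 := congrArg (fun z : Additive σ.ker => ((Additive.toMul z : σ.ker) : Γ))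
      (CfsgLib.SchurMult.pairing_eq_zero e hl hr halt hinv h4 h9 (hd k (σ x)) (hd k (σ y)))
    have h1 : Z (L (hd k (σ x))) (L (hd k (σ y))) = 1 := h0
    rw [← hdep x _ _ hx (hL1 _) (hL1 _) (hL2 _).symm, ← hdep' _ y _ hx hy (hL1 _) (hL2 _).symm] at h1
    simpa [h1] using hZ2 x y hx hy
  -- a torus element moving the layer
  obtain ⟨c₀, hc₀, hc₁⟩ : ∃ c : K, c ≠ 0 ∧ c ≠ 1 := by
    obtain ⟨c, -, h⟩ := Finset.exists_mem_notMem_of_card_lt_card (t := (Finset.univ : Finset K)) (s := {0, 1})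
      (by
        have := Finset.card_le_two (a := (0 : K)) (b := 1)
        rw [Finset.card_univ]; omega)
    simp only [Finset.mem_insert, Finset.mem_singleton, not_or] at h
    exact ⟨c, h⟩
  obtain ⟨t₀, ht₀, htc⟩ := H.char_surj k hk c₀ hc₀
  obtain ⟨t, rfl⟩ := hσ t₀
  have htx : ∀ x, σ x ∈ U k → σ ⁅t, x⁆ ∈ U k ∧ hd k (σ ⁅t, x⁆) = (c₀ - 1) * hd k (σ x) := fun x hx => by
    obtain ⟨h1, h2⟩ := H.scale k hk _ ht₀ _ hx
    simp only [commutatorElement_def, map_mul, map_inv]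
    exact ⟨mul_mem h1 (inv_mem hx), by
      rw [H.add k hk _ h1 _ (inv_mem hx), H.hd_inv hk hx, h2, htc]; ring⟩
  have hprod : ∀ x y, σ x ∈ U k → σ y ∈ U k → ∃ d ∈ C, ⁅t, x * y⁆ = ⁅t, x⁆ * ⁅t, y⁆ * d := fun x y hx hy =>
    ⟨⁅⁅t, y⁆⁻¹, x⁆, hcommC _ _ (by rw [map_inv]; exact inv_mem (htx y hy).1) hx, by
      simp only [commutatorElement_def]; group⟩
  have hmove : ∀ g, σ g ∈ U k → ∀ c ∈ C, g⁻¹ * c * g ∈ C := fun g hg c hcC => by
    simpa using hnorm g⁻¹ (by rw [map_inv]; exact inv_mem hg) c hcC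
  let C' : Subgroup Γ :=
    { carrier := {g | ∃ x, σ x ∈ U k ∧ ∃ c ∈ C, g = ⁅t, x⁆ * c}
      one_mem' := ⟨1, by simp, 1, one_mem _, by simp⟩
      mul_mem' := by
        rintro _ _ ⟨x, hx, c, hcC, rfl⟩ ⟨y, hy, d, hdC, rfl⟩
        obtain ⟨e, he, eq⟩ := hprod x y hx hy
        refine ⟨x * y, by rw [map_mul]; exact mul_mem hx hy,
          e⁻¹ * (⁅t, y⁆⁻¹ * c * ⁅t, y⁆) * d,
          mul_mem (mul_mem (inv_mem he) (hmove _ (htx y hy).1 c hcC)) hdC, ?_⟩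
        rw [eq]; group
      inv_mem' := by
        rintro _ ⟨x, hx, c, hcC, rfl⟩
        obtain ⟨e, he, eq⟩ := hprod x x⁻¹ hx (by rw [map_inv]; exact inv_mem hx)
        rw [mul_inv_cancel, commutatorElement_one_right] at eq
        refine ⟨x⁻¹, by rw [map_inv]; exact inv_mem hx,
          e * (⁅t, x⁆ * c⁻¹ * ⁅t, x⁆⁻¹), mul_mem he (hnorm _ (htx x hx).1 _ (inv_mem hcC)), ?_⟩
        have e2 : ⁅t, x⁻¹⁆ = ⁅t, x⁆⁻¹ * e⁻¹ := by
          have := eq.symm
          rw [← mul_inv_eq_one] at this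
          calc ⁅t, x⁻¹⁆ = ⁅t, x⁆⁻¹ * (⁅t, x⁆ * ⁅t, x⁻¹⁆ * e) * e⁻¹ := by group
            _ = _ := by rw [← eq, mul_one]
        rw [e2]; group }
  refine ⟨C', ⟨?_, ?_, ?_, ?_⟩⟩
  · rintro _ ⟨x, hx, c, hcC, rfl⟩
    rw [map_mul]
    exact mul_mem (htx x hx).1 (H.le k hk (hC.le c hcC))
  · intro g hg
    have hc01 : c₀ - 1 ≠ 0 := sub_ne_zero.2 hc₁
    obtain ⟨x, hx, ex⟩ : ∃ x, σ x ∈ U k ∧ hd k (σ x) = hd k g / (c₀ - 1) := ⟨_, hL1 _, hL2 _⟩
    obtain ⟨c, hcC, e⟩ := hC.onto _ (H.div_mem hk (htx x hx).1 hg (by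
      rw [(htx x hx).2, ex]; field_simp))
    exact ⟨⁅t, x⁆ * c, ⟨x, hx, c, hcC, rfl⟩, by rw [map_mul, e, mul_inv_cancel_left]⟩
  · rintro _ ⟨x, hx, c, hcC, rfl⟩ h1
    have hx' : σ x ∈ U (k + 1) := (H.zero k hk _ hx).1 (by
      have h2 : σ ⁅t, x⁆ ∈ U (k + 1) := by
        rw [map_mul] at h1
        rw [eq_inv_of_mul_eq_one_left h1]
        exact inv_mem (hC.le c hcC)
      have h3 := (H.zero k hk _ (htx x hx).1).2 h2
      rw [(htx x hx).2] at h3
      exact (mul_eq_zero.1 h3).resolve_left (sub_ne_zero.2 hc₁))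
    obtain ⟨d, hd0, e⟩ := hC.onto _ hx'
    rw [CfsgLib.SchurMult.comm_eq_of_map_eq hc (a' := t) (b' := d) rfl e.symm] at h1 ⊢
    exact hC.triv _ (mul_mem (by
      rw [commutatorElement_def]; exact mul_mem (hC.inv t ht₀ d hd0) (inv_mem hd0)) hcC) h1
  · rintro s hs _ ⟨x, hx, c, hcC, rfl⟩
    refine ⟨s * x * s⁻¹, by simpa using (H.scale k hk _ hs _ hx).1, s * c * s⁻¹, hC.inv s hs c hcC, ?_⟩
    have e : ⁅t, s * x * s⁻¹⁆ = ⁅s * t * s⁻¹, s * x * s⁻¹⁆ :=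
      CfsgLib.SchurMult.comm_eq_of_map_eq hc (by
        rw [map_mul, map_mul, map_inv, H.torus_comm _ hs _ ht₀, mul_inv_cancel_right]) rfl
    rw [e, ← conjugate_commutatorElement]
    group

/-- The bottom of the chain. -/
theorem isSec_bot : IsSec σ T (U n) (⊥ : Subgroup Γ) where
  le c hcC := by rw [Subgroup.mem_bot.1 hcC, map_one]; exact one_mem _
  onto g hg := ⟨1, one_mem _, by rw [map_one]; rw [H.bot, Subgroup.mem_bot] at hg; exact hg.symm⟩
  triv c hcC _ := Subgroup.mem_bot.1 hcC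
  inv t _ c hcC := by rw [Subgroup.mem_bot.1 hcC, mul_one, mul_inv_cancel]; exact one_mem _

/-- Stability at the bottom. -/
theorem stable_bot {C : Subgroup Γ} {V : Subgroup G} (hC : IsSec σ T V C) (k : ℕ) :
    Stable σ U C k n := by
  intro x _ c hcC hcn
  rw [H.bot, Subgroup.mem_bot] at hcn
  rw [hC.triv c hcC hcn, mul_one, mul_inv_cancel]
  exact one_mem _

omit H in
/-- Over a section the commutator subgroup of the preimage meets the kernel trivially. -/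
theorem comm_ker_of_isSec (hc : σ.ker ≤ Subgroup.center Γ) {V : Subgroup G} {C : Subgroup Γ} (hC : IsSec σ T V C) {z : Γ}
    (hz : z ∈ ⁅V.comap σ, V.comap σ⁆) (hzk : σ z = 1) : z = 1 := by
  refine hC.triv z ?_ hzk
  refine (Subgroup.commutator_le.2 fun a ha b hb => ?_) hz
  obtain ⟨a', ha', ea⟩ := hC.onto _ ha
  obtain ⟨b', hb', eb⟩ := hC.onto _ hb
  rw [CfsgLib.SchurMult.comm_eq_of_map_eq hc ea.symm eb.symm, commutatorElement_def]
  exact mul_mem (mul_mem (mul_mem ha' hb') (inv_mem ha')) (inv_mem hb')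

end CfsgLib.ReeFourMult
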