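import Cfsg.Agent.Lib.TwMult.PLift
import Cfsg.Agent.Lib.SchurMult.CentralComm
import Mathlib.GroupTheory.Transfer
import Cfsg.Prelude.Def_KGroupFacts

/-!
Central extensions with kernel of odd order of a finite group with a BN-pair of rank two in characteristic two and
dihedral Weyl group of order sixteen: the lifted cells form a complement once the two rank-one identities lift.
-/

set_option autoImplicit false
set_option linter.unusedSectionVars false
set_option linter.style.haveILetI false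

namespace CfsgLib.ReeFourMult.Engine

open CfsgLib.TwMult (PLift IsPElem isPElem_of_mem isPElem_one)
open scoped commutatorElement

universe u v

variable {G : Type v} [Group G] {Γ : Type u} [Group Γ]

/-- A rank-one part: a root subgroup with its reflection. -/
structure Node (U T N : Subgroup G) (s : G) (X : Subgroup G) : Prop where
  /-- inside the unipotent part -/
  le : X ≤ U
  /-- an involution -/
  sq : s * s = 1
  /-- in the monomial part -/
  mem : s ∈ N
  /-- normalises the torus -/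
  norm : ∀ τ ∈ T, s * τ * s ∈ T
  /-- the unipotent part splits -/
  split : ∀ u ∈ U, ∃ a ∈ X, ∃ u' ∈ U, s * u' * s ∈ U ∧ u = u' * a
  /-- the cell of a nontrivial element -/
  cell : ∀ x ∈ X, x ≠ 1 → ∃ u ∈ U, ∃ τ ∈ T, ∃ b ∈ X, s * x * s = u * τ * s * b
  /-- the conjugate avoids the Borel subgroup -/
  sep : ∀ x ∈ X, ∀ u ∈ U, ∀ τ ∈ T, s * x * s = u * τ → x = 1
  /-- signs -/
  sign : ∀ w ∈ N, (∀ x ∈ X, w⁻¹ * x * w ∈ U) ∨ ∀ x ∈ X, w⁻¹ * (s * x * s) * w ∈ U

/-- The data of the group. -/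
structure Data (U T : Subgroup G) (sA sB : G) : Prop where
  /-- a 2-group -/
  pU : IsPGroup 2 U
  /-- of odd order -/
  oddT : Odd (Nat.card T)
  /-- the torus normalises the unipotent part -/
  normT : ∀ τ ∈ T, ∀ u ∈ U, τ * u * τ⁻¹ ∈ U
  /-- involution -/
  sqA : sA * sA = 1
  /-- involution -/
  sqB : sB * sB = 1
  /-- dihedral relation -/
  braid : (sA * sB) ^ 8 = 1
  /-- normalises -/
  normA : ∀ τ ∈ T, sA * τ * sA ∈ T
  /-- normalises -/
  normB : ∀ τ ∈ T, sB * τ * sB ∈ T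
  /-- the longest element inverts the torus -/
  longest : ∀ τ ∈ T, (sA * sB) ^ 4 * τ * ((sA * sB) ^ 4)⁻¹ = τ⁻¹
  /-- two generators exchanged by a reflection -/
  two : ∃ a ∈ T, T ≤ Subgroup.closure {a, sB * a * sB}
  /-- trivial intersection -/
  inter : ∀ g ∈ U, g ∈ T ⊔ Subgroup.closure {sA, sB} → g = 1
  /-- generation -/
  gen : U ⊔ (T ⊔ Subgroup.closure {sA, sB}) = ⊤

section lifts

variable [Finite Γ] {σ : Γ →* G} {l : G → Γ} (P : PLift σ 2 l) (hc : σ.ker ≤ Subgroup.center Γ)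
  (hodd : Odd (Nat.card σ.ker))

include hodd in
theorem ker_sq_eq_one {z : Γ} (hz : σ z = 1) (h2 : z * z = 1) : z = 1 := by
  have h1 : orderOf (⟨z, hz⟩ : σ.ker) ∣ Nat.card σ.ker := orderOf_dvd_natCard _
  have h3 : orderOf (⟨z, hz⟩ : σ.ker) ∣ 2 :=
    orderOf_dvd_of_pow_eq_one (Subtype.ext (by rw [Subgroup.coe_pow, pow_two]; exact h2))
  have h4 := Nat.eq_one_of_dvd_coprimes (Nat.coprime_two_left.2 hodd) h3 h1
  exact congrArg Subtype.val (orderOf_eq_one_iff.1 h4)

theorem isPElem_of_sq {g : G} (h : g * g = 1) : IsPElem 2 g := ⟨1, by rw [pow_one, pow_two, h]⟩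

include P in
theorem lift_sq {g : G} (h : g * g = 1) : l g * l g = 1 := by
  obtain ⟨k, hk⟩ := P.elem g (isPElem_of_sq h)
  have e := P.uniq (l g * l g) ⟨k, by rw [← pow_two, ← pow_mul, mul_comm, pow_mul, hk, one_pow]⟩
  rw [map_mul, P.map g (isPElem_of_sq h), h, P.one] at e
  exact e

include P in
theorem lift_inv_sq {g : G} (h : g * g = 1) : (l g)⁻¹ = l g :=
  inv_eq_of_mul_eq_one_right (lift_sq P h)

variable {U T : Subgroup G} {sA sB : G} (D : Data U T sA sB)

/-- the lift of the rotation -/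
def rot (l : G → Γ) (sA sB : G) : Γ := l sA * l sB

/-- the lifted dihedral group -/
def dih (l : G → Γ) (sA sB : G) : Subgroup Γ := Subgroup.closure {l sA, l sB}

include P D in
theorem map_rot : σ (rot l sA sB) = sA * sB := by
  rw [rot, map_mul, P.map _ (isPElem_of_sq D.sqA), P.map _ (isPElem_of_sq D.sqB)]

include P D in
theorem conjA_rot : l sA * rot l sA sB * (l sA)⁻¹ = (rot l sA sB)⁻¹ := by
  rw [rot, mul_inv_rev, lift_inv_sq P D.sqA, lift_inv_sq P D.sqB, ← mul_assoc, lift_sq P D.sqA, one_mul]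

include P hc hodd D in
theorem rot_pow : rot l sA sB ^ 8 = 1 := by
  refine ker_sq_eq_one hodd (by rw [map_pow, map_rot P D, D.braid]) ?_
  have hz : σ (rot l sA sB ^ 8) = 1 := by rw [map_pow, map_rot P D, D.braid]
  have h1 : l sA * rot l sA sB ^ 8 * (l sA)⁻¹ = (rot l sA sB ^ 8)⁻¹ := by
    rw [← conj_pow, conjA_rot P D, inv_pow]
  rw [Subgroup.mem_center_iff.1 (hc hz) (l sA), mul_inv_cancel_right] at h1
  nth_rw 2 [h1]
  exact mul_inv_cancel _

include P hc hodd D in
theorem dih_pow {d : Γ} (hd : d ∈ dih l sA sB) : d ^ 8 = 1 := by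
  have hr := rot_pow P hc hodd D
  have hsq : ∀ g ∈ ({l sA, l sB} : Set Γ), g * g = 1 := by
    rintro g (rfl | rfl)
    exacts [lift_sq P D.sqA, lift_sq P D.sqB]
  have ha := lift_sq P D.sqA
  have hb := lift_sq P D.sqB
  have key : ∃ i : ℤ, d = rot l sA sB ^ i ∨ d = rot l sA sB ^ i * l sA := by
    have hflip : ∀ i : ℤ, l sA * rot l sA sB ^ i = rot l sA sB ^ (-i) * l sA := fun i => by
      rw [zpow_neg, ← inv_zpow, ← conjA_rot P D, conj_zpow]; group
    induction hd using Subgroup.closure_induction with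
    | mem y hy =>
      rcases hy with rfl | rfl
      · exact ⟨0, Or.inr (by simp)⟩
      · refine ⟨-1, Or.inr ?_⟩
        rw [rot, zpow_neg_one, mul_inv_rev, lift_inv_sq P D.sqA, lift_inv_sq P D.sqB, mul_assoc, ha, mul_one]
    | one => exact ⟨0, Or.inl (by simp)⟩
    | mul y z _ _ hy hz =>
      obtain ⟨i, rfl | rfl⟩ := hy <;> obtain ⟨j, rfl | rfl⟩ := hz
      · exact ⟨i + j, Or.inl (zpow_add _ _ _).symm⟩
      · exact ⟨i + j, Or.inr (by rw [zpow_add, mul_assoc])⟩
      · exact ⟨i - j, Or.inr (by rw [mul_assoc, hflip, ← mul_assoc, ← zpow_add]; rfl)⟩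
      · exact ⟨i - j, Or.inl (by
          rw [mul_assoc, ← mul_assoc (l sA), hflip, mul_assoc _ (l sA) (l sA), ha, mul_one, ← zpow_add]; rfl)⟩
    | inv y _ hy =>
      obtain ⟨i, rfl | rfl⟩ := hy
      · exact ⟨-i, Or.inl (zpow_neg _ _).symm⟩
      · exact ⟨i, Or.inr (by rw [mul_inv_rev, lift_inv_sq P D.sqA, ← zpow_neg, hflip, neg_neg])⟩
  obtain ⟨i, rfl | rfl⟩ := key
  · rw [← zpow_natCast, ← zpow_mul, mul_comm, zpow_mul, zpow_natCast, hr, one_zpow]
  · have h2 : rot l sA sB ^ i * l sA * (rot l sA sB ^ i * l sA) = 1 := by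
      calc rot l sA sB ^ i * l sA * (rot l sA sB ^ i * l sA)
          = rot l sA sB ^ i * (l sA * rot l sA sB ^ i * (l sA)⁻¹) * (l sA * l sA) := by group
        _ = 1 := by rw [← conj_zpow, conjA_rot P D, ha, inv_zpow, mul_inv_cancel, one_mul]
    rw [show 8 = 2 * 4 from rfl, pow_mul, pow_two, h2, one_pow]

include P hc hodd D in
theorem dih_eq_one {d : Γ} (hd : d ∈ dih l sA sB) (hT : σ d ∈ T) : d = 1 := by
  have h8 := dih_pow P hc hodd D hd
  have h1 : orderOf (⟨σ d, hT⟩ : T) ∣ Nat.card T := orderOf_dvd_natCard _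
  have h3 : orderOf (⟨σ d, hT⟩ : T) ∣ 2 ^ 3 :=
    orderOf_dvd_of_pow_eq_one (Subtype.ext (by
      rw [Subgroup.coe_pow]; show σ d ^ 8 = 1; rw [← map_pow, h8, map_one]))
  have h4 := Nat.eq_one_of_dvd_coprimes ((Nat.coprime_two_left.2 D.oddT).pow_left 3) h3 h1
  have hd1 : σ d = 1 := congrArg Subtype.val (orderOf_eq_one_iff.1 h4)
  have h5 : orderOf (⟨d, hd1⟩ : σ.ker) ∣ Nat.card σ.ker := orderOf_dvd_natCard _
  have h6 : orderOf (⟨d, hd1⟩ : σ.ker) ∣ 2 ^ 3 :=
    orderOf_dvd_of_pow_eq_one (Subtype.ext (by rw [Subgroup.coe_pow]; exact h8))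
  exact congrArg Subtype.val
    (orderOf_eq_one_iff.1 (Nat.eq_one_of_dvd_coprimes ((Nat.coprime_two_left.2 hodd).pow_left 3) h6 h5))

/-- the lift of the longest element -/
def longest (l : G → Γ) (sA sB : G) : Γ := rot l sA sB ^ 4

include P hc hodd D in
theorem longest_sq : longest l sA sB * longest l sA sB = 1 := by
  rw [longest, ← pow_add, rot_pow P hc hodd D]

include P hc hodd D in
theorem longest_inv : (longest l sA sB)⁻¹ = longest l sA sB :=
  inv_eq_of_mul_eq_one_right (longest_sq P hc hodd D)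

include P hc hodd D in
theorem longest_comm {d : Γ} (hd : d ∈ dih l sA sB) : d * longest l sA sB = longest l sA sB * d := by
  have hA : l sA * longest l sA sB = longest l sA sB * l sA := by
    have : l sA * longest l sA sB * (l sA)⁻¹ = longest l sA sB := by
      rw [longest, ← conj_pow, conjA_rot P D, inv_pow, ← longest, longest_inv P hc hodd D]
    calc l sA * longest l sA sB = l sA * longest l sA sB * (l sA)⁻¹ * l sA := by group
      _ = _ := by rw [this]
  have hR : rot l sA sB * longest l sA sB = longest l sA sB * rot l sA sB :=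
    ((Commute.refl (rot l sA sB)).pow_right 4).eq
  have hB : l sB = (l sA)⁻¹ * rot l sA sB := by rw [rot, inv_mul_cancel_left]
  have hle : dih l sA sB ≤ Subgroup.centralizer {longest l sA sB} := by
    refine (Subgroup.closure_le _).2 ?_
    rintro g (rfl | rfl) <;> rw [SetLike.mem_coe, Subgroup.mem_centralizer_singleton_iff]
    · exact hA
    · rw [hB]
      exact ((Commute.inv_left (show Commute (l sA) _ from hA)).mul_left hR).eq
  exact Subgroup.mem_centralizer_singleton_iff.1 (hle hd)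

include P hc D hodd in
/-- the preimage of the torus is abelian -/
theorem preT_comm (hs : Function.Surjective σ) {x y : Γ} (hx : σ x ∈ T) (hy : σ y ∈ T) : x * y = y * x := by
  obtain ⟨a, ha, hgen⟩ := D.two
  have hsB := P.map _ (isPElem_of_sq D.sqB)
  obtain ⟨ã, rfl⟩ := hs a
  set b := l sB * ã * l sB with hb
  have hσb : σ b = sB * σ ã * sB := by rw [hb, map_mul, map_mul, hsB]
  have hbT : σ b ∈ T := hσb ▸ D.normB _ ha
  have hTc : ∀ g ∈ T, ∀ h ∈ T, g * h = h * g := by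
    intro g hg h hh
    have e := D.longest (g * h) (mul_mem hg hh)
    have eg := D.longest g hg
    have eh := D.longest h hh
    have : ((sA * sB) ^ 4 * g * ((sA * sB) ^ 4)⁻¹) * ((sA * sB) ^ 4 * h * ((sA * sB) ^ 4)⁻¹) = (g * h)⁻¹ := by
      rw [← e]; group
    rw [eg, eh, ← mul_inv_rev, inv_inj] at this
    exact this.symm
  have hab : Commute (σ ã) (σ b) := hTc _ ha _ hbT
  have h1 : ⁅ã, b⁆ = 1 := by
    refine ker_sq_eq_one hodd (CfsgLib.SchurMult.comm_mem_ker hab) ?_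
    have e1 := CfsgLib.SchurMult.comm_conj hc hab (l sB)
    have e2 : ⁅l sB * ã * (l sB)⁻¹, l sB * b * (l sB)⁻¹⁆ = ⁅b, ã⁆ := by
      rw [lift_inv_sq P D.sqB, ← hb]
      refine CfsgLib.SchurMult.comm_eq_of_map_eq hc rfl ?_
      rw [hb, show l sB * (l sB * ã * l sB) * l sB = (l sB * l sB) * ã * (l sB * l sB) by group,
        lift_sq P D.sqB, one_mul, mul_one]
    rw [e2] at e1
    calc ⁅ã, b⁆ * ⁅ã, b⁆ = ⁅ã, b⁆ * ⁅b, ã⁆ := by rw [e1]
      _ = 1 := by rw [← commutatorElement_inv ã b, mul_inv_cancel]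
  have hcl : T ≤ Subgroup.closure (σ '' {ã, b}) := by
    rw [Set.image_pair, hσb]
    exact hgen
  have hbot := CfsgLib.SchurMult.commutator_comap_closure_eq_bot hc {ã, b} (σ := σ) (by
    rintro s (rfl | rfl) t (rfl | rfl)
    · exact commutatorElement_self _
    · exact h1
    · rw [← commutatorElement_inv, h1, inv_one]
    · exact commutatorElement_self _)
  have h2 := Subgroup.commutator_mem_commutator (show x ∈ (Subgroup.closure (σ '' {ã, b})).comap σ from hcl hx)
    (show y ∈ (Subgroup.closure (σ '' {ã, b})).comap σ from hcl hy)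
  rw [hbot, Subgroup.mem_bot, commutatorElement_eq_one_iff_mul_comm] at h2
  exact h2

variable (hs : Function.Surjective σ)

include P hc hodd D hs in
/-- the torus in the extension -/
theorem exists_torus_lift : ∃ C : Subgroup Γ, (∀ c ∈ C, σ c ∈ T) ∧
    (∀ τ ∈ T, ∃ c ∈ C, σ c = τ) ∧ (∀ c ∈ C, σ c = 1 → c = 1) ∧
    ∀ d ∈ dih l sA sB, ∀ c ∈ C, d * c * d⁻¹ ∈ C := by
  set w := longest l sA sB with hw
  have hww : w * w = 1 := longest_sq P hc hodd D
  have hwi : w⁻¹ = w := longest_inv P hc hodd D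
  have hσw : σ w = (sA * sB) ^ 4 := by rw [hw, longest, map_pow, map_rot P D]
  have hcm : ∀ {x y : Γ}, σ x ∈ T → σ y ∈ T → x * y = y * x := fun hx hy => preT_comm P hc hodd D hs hx hy
  let C : Subgroup Γ :=
    { carrier := {c | σ c ∈ T ∧ w * c * w⁻¹ = c⁻¹}
      one_mem' := ⟨by rw [map_one]; exact one_mem _, by simp⟩
      mul_mem' := by
        rintro a b ⟨ha, ha'⟩ ⟨hb, hb'⟩
        refine ⟨by rw [map_mul]; exact mul_mem ha hb, ?_⟩
        calc w * (a * b) * w⁻¹ = (w * a * w⁻¹) * (w * b * w⁻¹) := by group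
          _ = (b * a)⁻¹ := by rw [ha', hb', mul_inv_rev]
          _ = _ := by rw [hcm hb ha]
      inv_mem' := by
        rintro a ⟨ha, ha'⟩
        refine ⟨by rw [map_inv]; exact inv_mem ha, ?_⟩
        rw [← conj_inv, ha'] }
  refine ⟨C, fun c hc' => hc'.1, fun τ hτ => ?_, fun c hc' h1 => ?_, ?_⟩
  · obtain ⟨k, hk⟩ := D.oddT
    have hpow : τ ^ Nat.card T = 1 := by
      have := pow_card_eq_one' (x := (⟨τ, hτ⟩ : T))
      exact (Subgroup.coe_pow T ⟨τ, hτ⟩ (Nat.card T)).symm.trans (congrArg Subtype.val this)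
    obtain ⟨t, ht⟩ := hs (τ ^ (k + 1))
    have htT : σ t ∈ T := ht ▸ pow_mem hτ _
    refine ⟨t * (w * t * w⁻¹)⁻¹, ⟨?_, ?_⟩, ?_⟩
    · rw [map_mul, map_inv, map_mul, map_mul, map_inv, hσw, D.longest _ htT, inv_inv]
      exact mul_mem htT htT
    · calc w * (t * (w * t * w⁻¹)⁻¹) * w⁻¹ = w * t * w * t⁻¹ * (w * w)⁻¹ := by group
        _ = w * t * w⁻¹ * t⁻¹ := by rw [hww, inv_one, mul_one, hwi]
        _ = _ := by group
    · rw [map_mul, map_inv, map_mul, map_mul, map_inv, hσw, D.longest _ htT, inv_inv, ht, ← pow_add,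
        show k + 1 + (k + 1) = Nat.card T + 1 by omega, pow_succ, hpow, one_mul]
  · refine ker_sq_eq_one hodd h1 ?_
    have h2 := hc'.2
    rw [Subgroup.mem_center_iff.1 (hc h1) w, mul_inv_cancel_right] at h2
    nth_rw 2 [h2]
    exact mul_inv_cancel _
  · intro d hd
    induction hd using Subgroup.closure_induction with
    | mem g hg =>
      intro c hc'
      have hgw : g * w = w * g := longest_comm P hc hodd D (Subgroup.subset_closure hg)
      have hσg : σ (g * c * g⁻¹) ∈ T := by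
        rcases hg with rfl | rfl
        · rw [map_mul, map_mul, map_inv, P.map _ (isPElem_of_sq D.sqA),
            inv_eq_of_mul_eq_one_right D.sqA]
          exact D.normA _ hc'.1
        · rw [map_mul, map_mul, map_inv, P.map _ (isPElem_of_sq D.sqB),
            inv_eq_of_mul_eq_one_right D.sqB]
          exact D.normB _ hc'.1
      refine ⟨hσg, ?_⟩
      calc w * (g * c * g⁻¹) * w⁻¹ = (w * g) * c * (w * g)⁻¹ := by group
        _ = g * (w * c * w⁻¹) * g⁻¹ := by rw [← hgw]; group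
        _ = _ := by rw [hc'.2, conj_inv]
    | one => intro c hc'; simpa using hc'
    | mul a b _ _ ha hb =>
      intro c hc'
      have := ha _ (hb c hc')
      rwa [show a * (b * c * b⁻¹) * a⁻¹ = a * b * c * (a * b)⁻¹ by group] at this
    | inv a ha' ha =>
      intro c hc'
      have h8 : a⁻¹ = a ^ 7 := inv_eq_of_mul_eq_one_right (by
        rw [← pow_succ']; exact dih_pow P hc hodd D ha')
      have hpow : ∀ n : ℕ, a ^ n * c * (a ^ n)⁻¹ ∈ C := by
        intro n
        induction n with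
        | zero => simpa using hc'
        | succ n ih =>
          have := ha _ ih
          rwa [show a * (a ^ n * c * (a ^ n)⁻¹) * a⁻¹ = a ^ (n + 1) * c * (a ^ (n + 1))⁻¹ by
            rw [pow_succ']; group] at this
      rw [h8]
      exact hpow 7

/-- The rank-one identity in the extension. -/
def Ident (l : G → Γ) (_σ : Γ →* G) (U : Subgroup G) (C : Subgroup Γ) (s : G) (X : Subgroup G) : Prop :=
  ∀ x ∈ X, x ≠ 1 → ∃ u ∈ U, ∃ c ∈ C, ∃ b ∈ X, l s * l x * l s = l u * c * l s * l b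

variable {C : Subgroup Γ} (hC1 : ∀ c ∈ C, σ c ∈ T) (hC2 : ∀ τ ∈ T, ∃ c ∈ C, σ c = τ)
  (hC3 : ∀ c ∈ C, σ c = 1 → c = 1) (hC4 : ∀ d ∈ dih l sA sB, ∀ c ∈ C, d * c * d⁻¹ ∈ C)
  {s : G} {X : Subgroup G} (hs' : l s ∈ dih l sA sB) (Nd : Node U T (T ⊔ Subgroup.closure {sA, sB}) s X)

include P D in
theorem mapU {u : G} (hu : u ∈ U) : σ (l u) = u := P.map u (isPElem_of_mem D.pU hu)

include P D in
theorem mulU {u v : G} (hu : u ∈ U) (hv : v ∈ U) : l (u * v) = l u * l v := P.mul U D.pU u hu v hv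

include P D in
theorem invU {u : G} (hu : u ∈ U) : l u⁻¹ = (l u)⁻¹ := by
  refine (inv_eq_of_mul_eq_one_right ?_).symm
  rw [← mulU P D hu (inv_mem hu), mul_inv_cancel, P.one]

include P D in
theorem conjU {u : G} (hu : u ∈ U) (g : Γ) : g * l u * g⁻¹ = l (σ g * u * (σ g)⁻¹) :=
  P.conj (isPElem_of_mem D.pU hu) g

include P D Nd hC1 hC3 in
theorem normal_form_unique {u u' b b' : G} {c c' : Γ} (hu : u ∈ U) (hu' : u' ∈ U) (hc0 : c ∈ C) (hc0' : c' ∈ C)
    (hb : b ∈ X) (hb' : b' ∈ X) (e : u * σ c * s * b = u' * σ c' * s * b') : u = u' ∧ c = c' ∧ b = b' := by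
  have hsi : s⁻¹ = s := inv_eq_of_mul_eq_one_right Nd.sq
  have h1 : s * (b' * b⁻¹) * s = ((σ c')⁻¹ * (u'⁻¹ * u) * σ c') * ((σ c')⁻¹ * σ c) := by
    calc s * (b' * b⁻¹) * s = (u' * σ c')⁻¹ * (u' * σ c' * s * b') * b⁻¹ * s⁻¹ := by rw [hsi]; group
      _ = _ := by rw [← e]; group
  have hbb : b = b' := by
    refine (mul_inv_eq_one.1 (Nd.sep _ (mul_mem hb' (inv_mem hb)) _ ?_ _
      (mul_mem (inv_mem (hC1 _ hc0')) (hC1 _ hc0)) h1)).symm
    have := D.normT _ (inv_mem (hC1 _ hc0')) _ (mul_mem (inv_mem hu') hu)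
    rwa [inv_inv] at this
  subst hbb
  have h2 : u * σ c = u' * σ c' := mul_right_cancel (mul_right_cancel e)
  have h3 : u'⁻¹ * u = σ c' * (σ c)⁻¹ := by
    rw [eq_mul_inv_iff_mul_eq, mul_assoc, h2, inv_mul_cancel_left]
  have h4 : u'⁻¹ * u = 1 := D.inter _ (mul_mem (inv_mem hu') hu)
    (h3 ▸ Subgroup.mem_sup_left (mul_mem (hC1 _ hc0') (inv_mem (hC1 _ hc0))))
  obtain rfl := (inv_mul_eq_one.1 h4).symm
  refine ⟨rfl, ?_, rfl⟩
  exact mul_inv_eq_one.1 (hC3 _ (mul_mem hc0 (inv_mem hc0'))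
    (by rw [map_mul, map_inv, mul_left_cancel h2, mul_inv_cancel]))

include P hc hodd D hC1 hC2 hC3 hC4 hs' Nd in
theorem ident_of_involutions (hX : ∀ x ∈ X, x * x = 1) : Ident l σ U C s X := by
  intro x hx hx1
  obtain ⟨u, hu, τ, hτ, b, hb, e⟩ := Nd.cell x hx hx1
  obtain ⟨c, hcC, rfl⟩ := hC2 τ hτ
  refine ⟨u, hu, c, hcC, b, hb, ?_⟩
  have hls := lift_sq P Nd.sq
  have hlsi := lift_inv_sq P Nd.sq
  have hσs := P.map _ (isPElem_of_sq Nd.sq)
  have hsi : s⁻¹ = s := inv_eq_of_mul_eq_one_right Nd.sq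
  set M := l u * c * l s * l b with hM
  have hσM : σ M = s * x * s := by
    rw [hM, map_mul, map_mul, map_mul, mapU P D hu, hσs, mapU P D (Nd.le hb), e]
  -- the inverse is in normal form
  obtain ⟨a, ha, u', hu', hsu', eu⟩ := Nd.split _ (inv_mem hu)
  set c'' := l s * c⁻¹ * l s with hc''
  have hc''C : c'' ∈ C := by
    have := hC4 _ hs' _ (inv_mem hcC)
    rwa [hlsi] at this
  set v := b⁻¹ * (σ c'' * (s * u' * s) * (σ c'')⁻¹) with hv
  have hv1 : σ c'' * (s * u' * s) * (σ c'')⁻¹ ∈ U := D.normT _ (hC1 _ hc''C) _ hsu'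
  have hvU : v ∈ U := mul_mem (inv_mem (Nd.le hb)) hv1
  have hMinv : M⁻¹ = l v * c'' * l s * l a := by
    rw [hv, mulU P D (inv_mem (Nd.le hb)) hv1, ← conjU P D hsu' c'']
    have e1 : l (s * u' * s) = l s * l u' * l s := by
      have := conjU P D hu' (l s)
      rw [hσs, hsi, hlsi] at this
      exact this.symm
    rw [e1, invU P D (Nd.le hb), hc'']
    calc M⁻¹ = (l b)⁻¹ * (l s)⁻¹ * c⁻¹ * (l u)⁻¹ := by rw [hM]; group
      _ = (l b)⁻¹ * (l s * c⁻¹ * (l s * l s)) * (l u' * (l s * l s) * l a) := by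
          rw [hls, mul_one, mul_one, hlsi, ← mulU P D hu' (Nd.le ha), ← eu, invU P D hu]; group
      _ = _ := by group
  have hsxs : (s * x * s) * (s * x * s) = 1 := by
    calc (s * x * s) * (s * x * s) = s * (x * (s * s) * x) * s := by group
      _ = 1 := by rw [Nd.sq, mul_one, hX x hx, mul_one, Nd.sq]
  have e2 : u * σ c * s * b = v * σ c'' * s * a := by
    have h1 := congrArg σ hMinv
    rw [map_inv, hσM, inv_eq_of_mul_eq_one_right hsxs, e, map_mul, map_mul, map_mul, mapU P D hvU, hσs,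
      mapU P D (Nd.le ha)] at h1
    exact h1
  obtain ⟨rfl, hcc, rfl⟩ := normal_form_unique P D hC1 hC3 Nd hu hvU hcC hc''C hb ha e2
  rw [← hcc] at hMinv
  have hMM : M * M = 1 := by
    have h1 : M⁻¹ = M := hMinv
    nth_rw 2 [← h1]
    exact mul_inv_cancel M
  have hlx := lift_sq P (hX x hx)
  set Q := l s * l x * l s with hQ
  have hQQ : Q * Q = 1 := by
    calc Q * Q = l s * (l x * (l s * l s) * l x) * l s := by rw [hQ]; group
      _ = 1 := by rw [hls, mul_one, hlx, mul_one, hls]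
  have hz : σ (Q * M) = 1 := by
    rw [map_mul, hσM, hQ, map_mul, map_mul, hσs, mapU P D (Nd.le hx), hsxs]
  have hz1 : Q * M = 1 := by
    refine ker_sq_eq_one hodd hz ?_
    have hcomm := Subgroup.mem_center_iff.1 (hc hz) Q
    calc Q * M * (Q * M) = Q * (M * (Q * M)) := by group
      _ = Q * ((Q * M) * M) := by rw [Subgroup.mem_center_iff.1 (hc hz) M]
      _ = (Q * Q) * (M * M) := by group
      _ = 1 := by rw [hQQ, hMM, one_mul]
  rw [mul_eq_one_iff_eq_inv.1 hz1, hMinv]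

omit [Finite Γ] in
/-- The kernel of a central extension by a group of odd order meets a subgroup generated by 2-elements trivially
once the odd subgroups of prime power order of the quotient are cyclic. -/
theorem eq_one_of_two_gen {M : Type*} [Group M] [Finite M] {Q : Type*} [Group Q] (f : M →* Q)
    (hcen : f.ker ≤ Subgroup.center M) (hfo : Odd (Nat.card f.ker))
    (hcyc : ∀ p : ℕ, p.Prime → p ≠ 2 → ∀ R : Subgroup Q, IsPGroup p R → IsCyclic R)
    (S : Set M) (hS : ∀ g ∈ S, IsPElem 2 g) (hgen : Subgroup.closure S = ⊤) {z : M} (hz : f z = 1) : z = 1 := by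
  by_contra hne
  obtain ⟨p, hp, hpd⟩ := Nat.exists_prime_and_dvd (mt orderOf_eq_one_iff.1 hne)
  haveI := Fact.mk hp
  have hp2 : p ≠ 2 := by
    rintro rfl
    have h1 : orderOf (⟨z, hz⟩ : f.ker) ∣ Nat.card f.ker := orderOf_dvd_natCard _
    rw [← Subgroup.orderOf_coe] at h1
    exact (Nat.not_even_iff_odd.2 hfo) (even_iff_two_dvd.2 (hpd.trans h1))
  haveI : Finite f.range := Finite.of_surjective f.rangeRestrict f.rangeRestrict_surjective
  obtain ⟨R⟩ : Nonempty (Sylow p f.range) := inferInstance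
  set g := f.rangeRestrict
  have hgk : g.ker ≤ Subgroup.center M := by rwa [f.ker_rangeRestrict]
  haveI hRc : IsCyclic (R : Subgroup f.range) := by
    haveI := hcyc p hp hp2 ((R : Subgroup f.range).map f.range.subtype) (R.isPGroup'.map _)
    exact isCyclic_of_surjective ((R : Subgroup f.range).equivMapOfInjective f.range.subtype
      f.range.subtype_injective).symm.toMonoidHom (MulEquiv.surjective _)
  set Pt := (R : Subgroup f.range).comap g
  have hPc : ∀ a b : Pt, a * b = b * a := fun a b => Subtype.ext (by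
    have h1 := Subgroup.commutator_mem_commutator a.2 b.2
    rw [CfsgLib.SchurMult.commutator_comap_eq_bot_of_isCyclic hgk f.rangeRestrict_surjective, Subgroup.mem_bot,
      commutatorElement_eq_one_iff_mul_comm] at h1
    exact h1)
  letI : CommGroup Pt := { mul_comm := hPc }
  have key : ∀ (k : ℕ) (g₀ : M), g₀⁻¹ * z ^ k * g₀ ∈ Pt → g₀⁻¹ * z ^ k * g₀ = z ^ k := fun k g₀ _ => by
    rw [mul_assoc, ← Subgroup.mem_center_iff.1 (pow_mem (hcen hz) k) g₀, inv_mul_cancel_left]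
  have hV := MonoidHom.transfer_eq_pow (MonoidHom.id Pt) z key
  -- the preimage has odd order
  have hoddPt : Odd (Nat.card Pt) := by
    rw [← Nat.not_even_iff_odd, even_iff_two_dvd]
    intro hd
    obtain ⟨y, hy⟩ := exists_prime_orderOf_dvd_card' (hp := ⟨Nat.prime_two⟩) 2 hd
    have hy2 : (y : M) ^ 2 = 1 := by rw [← Subgroup.coe_pow, ← hy, pow_orderOf_eq_one, Subgroup.coe_one]
    obtain ⟨k, hk⟩ := R.isPGroup' ⟨g y, y.2⟩
    have h1 : orderOf (⟨g y, y.2⟩ : (R : Subgroup f.range)) ∣ p ^ k := orderOf_dvd_of_pow_eq_one hk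
    have h2 : orderOf (⟨g y, y.2⟩ : (R : Subgroup f.range)) ∣ 2 :=
      orderOf_dvd_of_pow_eq_one (Subtype.ext (by rw [Subgroup.coe_pow]; show g y ^ 2 = 1; rw [← map_pow, hy2, map_one]))
    have h3 := Nat.eq_one_of_dvd_coprimes
      (Nat.Coprime.pow_left k ((Nat.coprime_primes hp Nat.prime_two).2 hp2)) h1 h2
    have h4 : g y = 1 := congrArg Subtype.val (orderOf_eq_one_iff.1 h3)
    have hfy : f y = 1 := congrArg Subtype.val h4
    have h5 : orderOf (y : M) ∣ Nat.card f.ker := by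
      have := orderOf_dvd_natCard (⟨(y : M), hfy⟩ : f.ker)
      rwa [← Subgroup.orderOf_coe] at this
    rw [Subgroup.orderOf_coe, hy] at h5
    exact (Nat.not_even_iff_odd.2 hfo) (even_iff_two_dvd.2 h5)
  -- the transfer kills the generators
  have hkill : ∀ x : M, MonoidHom.transfer (MonoidHom.id Pt) x = 1 := by
    intro x
    have hle : Subgroup.closure S ≤ (MonoidHom.transfer (MonoidHom.id Pt)).ker := by
      refine (Subgroup.closure_le _).2 fun x hx => ?_
      obtain ⟨k, hk⟩ := hS x hx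
      have h1 : orderOf (MonoidHom.transfer (MonoidHom.id Pt) x) ∣ 2 ^ k :=
        orderOf_dvd_of_pow_eq_one (by rw [← map_pow, hk, map_one])
      exact orderOf_eq_one_iff.1 (Nat.eq_one_of_dvd_coprimes ((Nat.coprime_two_left.2 hoddPt).pow_left k) h1
        (orderOf_dvd_natCard _))
    exact hle (hgen ▸ Subgroup.mem_top x)
  rw [hkill] at hV
  have h2 : z ^ Pt.index = 1 := (congrArg Subtype.val hV).symm
  refine R.not_dvd_index ?_
  rw [← Subgroup.index_comap_of_surjective (R : Subgroup f.range) f.rangeRestrict_surjective]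
  exact hpd.trans (orderOf_dvd_of_pow_eq_one h2)

include P hc hodd D hC1 hC2 hC3 hC4 hs' Nd in
theorem ident_of_quotient {L : Subgroup G} {Q : Type*} [Group Q] (ψ : L →* Q) (hXL : X ≤ L) (hsL : s ∈ L)
    (hkT : ∀ g : L, ψ g = 1 → (g : G) ∈ T)
    (hkC : ∀ g : L, ψ g = 1 → (g : G) * s = s * g ∧ ∀ x ∈ X, (g : G) * x = x * g)
    (hcyc : ∀ p : ℕ, p.Prime → p ≠ 2 → ∀ R : Subgroup Q, IsPGroup p R → IsCyclic R)
    (hcell : ∀ x ∈ X, x ≠ 1 → ∃ u ∈ X, ∃ τ ∈ T, ∃ b ∈ X, ∃ hL : s * τ * s * τ ∈ L,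
      s * x * s = u * τ * s * b ∧ ψ ⟨s * τ * s * τ, hL⟩ = 1) :
    Ident l σ U C s X := by
  intro x hx hx1
  obtain ⟨u, hu, τ, hτ, b, hb, hL, e, hψ⟩ := hcell x hx hx1
  obtain ⟨c, hcC, rfl⟩ := hC2 τ hτ
  refine ⟨u, Nd.le hu, c, hcC, b, hb, ?_⟩
  have hls := lift_sq P Nd.sq
  have hlsi := lift_inv_sq P Nd.sq
  have hσs := P.map _ (isPElem_of_sq Nd.sq)
  have hsi : s⁻¹ = s := inv_eq_of_mul_eq_one_right Nd.sq
  set M : Subgroup Γ := Subgroup.closure ((l '' (X : Set G)) ∪ {l s}) with hM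
  have hML : ∀ g : M, σ g ∈ L := by
    rintro ⟨g, hg⟩
    show σ g ∈ L
    induction hg using Subgroup.closure_induction with
    | mem y hy =>
      rcases hy with ⟨x, hx, rfl⟩ | rfl
      · rw [mapU P D (Nd.le hx)]; exact hXL hx
      · rw [hσs]; exact hsL
    | one => rw [map_one]; exact one_mem _
    | mul a b _ _ ha hb => rw [map_mul]; exact mul_mem ha hb
    | inv a _ ha => rw [map_inv]; exact inv_mem ha
  let f : M →* Q := ψ.comp ((σ.comp M.subtype).codRestrict L hML)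
  have hcen : f.ker ≤ Subgroup.center M := by
    intro k hk
    rw [Subgroup.mem_center_iff]
    obtain ⟨hks, hkX⟩ := hkC ⟨σ k, hML k⟩ hk
    have hgens : ∀ y ∈ (l '' (X : Set G)) ∪ {l s}, (k : Γ) * y * (k : Γ)⁻¹ = y := by
      rintro y (⟨x, hx, rfl⟩ | rfl)
      · rw [conjU P D (Nd.le hx), hkX x hx, mul_inv_cancel_right]
      · rw [P.conj (isPElem_of_sq Nd.sq), hks, mul_inv_cancel_right]
    rintro ⟨g, hg⟩
    refine Subtype.ext ?_
    have hle : M ≤ Subgroup.centralizer {(k : Γ)} := by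
      refine (Subgroup.closure_le _).2 fun y hy => ?_
      rw [SetLike.mem_coe, Subgroup.mem_centralizer_singleton_iff]
      exact (mul_inv_eq_iff_eq_mul.1 (hgens y hy)).symm
    exact Subgroup.mem_centralizer_singleton_iff.1 (hle hg)
  have hfo : Odd (Nat.card f.ker) := by
    rw [← Nat.not_even_iff_odd, even_iff_two_dvd]
    intro hd
    obtain ⟨y, hy⟩ := exists_prime_orderOf_dvd_card' (hp := ⟨Nat.prime_two⟩) 2 hd
    have hy2 : ((y : M) : Γ) ^ 2 = 1 := by
      rw [← Subgroup.coe_pow, ← Subgroup.coe_pow, ← hy, pow_orderOf_eq_one, Subgroup.coe_one, Subgroup.coe_one]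
    have hyT : σ ((y : M) : Γ) ∈ T := hkT ⟨_, hML _⟩ y.2
    have h1 : orderOf (⟨_, hyT⟩ : T) ∣ 2 :=
      orderOf_dvd_of_pow_eq_one (Subtype.ext (by
        rw [Subgroup.coe_pow]; show σ ((y : M) : Γ) ^ 2 = 1; rw [← map_pow, hy2, map_one]))
    have h3 : σ ((y : M) : Γ) = 1 := congrArg Subtype.val (orderOf_eq_one_iff.1
      (Nat.eq_one_of_dvd_coprimes (Nat.coprime_two_left.2 D.oddT) h1 (orderOf_dvd_natCard _)))
    have h4 : ((y : M) : Γ) = 1 := ker_sq_eq_one hodd h3 (by rw [← pow_two]; exact hy2)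
    rw [show y = 1 from Subtype.ext (Subtype.ext h4), orderOf_one] at hy
    exact absurd hy (by norm_num)
  have hgen : Subgroup.closure ((M.subtype) ⁻¹' ((l '' (X : Set G)) ∪ {l s})) = ⊤ :=
    Subgroup.closure_closure_coe_preimage
  have hMls : l s ∈ M := Subgroup.subset_closure (Or.inr rfl)
  have hMX : ∀ y ∈ X, l y ∈ M := fun y hy => Subgroup.subset_closure (Or.inl ⟨y, hy, rfl⟩)
  set h := (l u)⁻¹ * (l s * l x * l s) * (l b)⁻¹ * l s with hh
  have hhM : h ∈ M := by
    exact mul_mem (mul_mem (mul_mem (inv_mem (hMX u hu)) (mul_mem (mul_mem hMls (hMX x hx)) hMls))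
      (inv_mem (hMX b hb))) hMls
  have hσh : σ h = σ c := by
    rw [hh, map_mul, map_mul, map_mul, map_mul, map_mul, map_inv, map_inv, hσs, mapU P D (Nd.le hu),
      mapU P D (Nd.le hx), mapU P D (Nd.le hb), e]
    calc u⁻¹ * (u * σ c * s * b) * b⁻¹ * s = σ c * (s * s) := by group
      _ = _ := by rw [Nd.sq, mul_one]
  have hinv : l s * h * l s * h = 1 := by
    have hmem : l s * h * l s * h ∈ M := mul_mem (mul_mem (mul_mem hMls hhM) hMls) hhM
    have h0 := eq_one_of_two_gen f hcen hfo hcyc _ (fun g hg => by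
      rcases hg with ⟨y, hy, e'⟩ | e'
      · obtain ⟨k, hk⟩ := P.elem y (isPElem_of_mem D.pU (Nd.le hy))
        exact ⟨k, Subtype.ext (by rw [Subgroup.coe_pow, show ((g : M) : Γ) = l y from e'.symm, hk]; rfl)⟩
      · exact ⟨1, Subtype.ext (by
          rw [pow_one, Subgroup.coe_pow, show ((g : M) : Γ) = l s from e', pow_two, hls]; rfl)⟩) hgen
      (z := ⟨_, hmem⟩) (by
        show ψ ⟨σ (l s * h * l s * h), hML ⟨_, hmem⟩⟩ = 1
        simp only [map_mul, hσs, hσh]
        exact hψ)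
    exact congrArg Subtype.val h0
  have hch : h = c := by
    have hσ1 : σ (h * c⁻¹) = 1 := by rw [map_mul, map_inv, hσh, mul_inv_cancel]
    have hcs : l s * c * l s * c = 1 := by
      have h1 := hC4 _ hs' _ hcC
      rw [hlsi] at h1
      refine hC3 _ (mul_mem h1 hcC) ?_
      have h2 := congrArg σ hinv
      simp only [map_mul, map_one, hσs, hσh] at h2 ⊢
      exact h2
    refine mul_inv_eq_one.1 (ker_sq_eq_one hodd hσ1 ?_)
    set z := h * c⁻¹ with hz
    have hzc : ∀ g : Γ, g * z = z * g := Subgroup.mem_center_iff.1 (hc hσ1)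
    have hhz : h = z * c := by rw [hz, inv_mul_cancel_right]
    calc z * z = z * z * (l s * c * l s * c) := by rw [hcs, mul_one]
      _ = z * ((z * (l s * c * l s)) * c) := by group
      _ = z * (((l s * c * l s) * z) * c) := by rw [hzc]
      _ = (z * (l s * c * l s)) * (z * c) := by group
      _ = (l s * (z * c) * l s) * (z * c) := by
          rw [← mul_assoc (l s) z c, hzc (l s)]; group
      _ = 1 := by rw [← hhz, hinv]
  calc l s * l x * l s = l u * h * l s * ((l s * l s) * l b) * (l s * l s)⁻¹ * (l s * l s) := by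
        rw [hh, hls, inv_one, one_mul, mul_one, mul_one]
        calc l s * l x * l s = l s * l x * l s * (l b)⁻¹ * (l s * l s) * l b := by rw [hls]; group
          _ = _ := by group
    _ = _ := by rw [hls, hch]; group

omit hC1 hC2 hC3 hC4 hs' Nd in
/-- Moving a lift over a monomial element. -/
theorem lifted_step {w : Γ} {y : G} (_hP : σ (l y) = y) (hy : IsPElem 2 y) (P : PLift σ 2 l) :
    l y * w = w * l ((σ w)⁻¹ * y * σ w) := by
  have h := P.conj (IsPElem.conj hy (σ w)⁻¹) w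
  rw [inv_inv, show σ w * ((σ w)⁻¹ * y * σ w) * (σ w)⁻¹ = y by group] at h
  rw [← h]; group

end lifts

/-- No stem extension has a nontrivial kernel of odd order. -/
theorem ker_eq_bot [Finite Γ] {σ : Γ →* G} {l : G → Γ} (P : PLift σ 2 l) (hσ : Cfsg.IsStemExtension σ)
    (hodd : Odd (Nat.card σ.ker)) {U T : Subgroup G} {sA sB : G} (D : Data U T sA sB) {XA XB : Subgroup G}
    (NA : Node U T (T ⊔ Subgroup.closure {sA, sB}) sA XA) (NB : Node U T (T ⊔ Subgroup.closure {sA, sB}) sB XB)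
    (hA : ∀ C : Subgroup Γ, (∀ c ∈ C, σ c ∈ T) → (∀ τ ∈ T, ∃ c ∈ C, σ c = τ) → (∀ c ∈ C, σ c = 1 → c = 1) →
      (∀ d ∈ dih l sA sB, ∀ c ∈ C, d * c * d⁻¹ ∈ C) → Ident l σ U C sA XA)
    (hB : ∀ C : Subgroup Γ, (∀ c ∈ C, σ c ∈ T) → (∀ τ ∈ T, ∃ c ∈ C, σ c = τ) → (∀ c ∈ C, σ c = 1 → c = 1) →
      (∀ d ∈ dih l sA sB, ∀ c ∈ C, d * c * d⁻¹ ∈ C) → Ident l σ U C sB XB) : σ.ker = ⊥ := by
  classical
  have hc := hσ.2.1
  obtain ⟨C, hC1, hC2, hC3, hC4⟩ := exists_torus_lift P hc hodd D hσ.1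
  set Dh := dih l sA sB
  set NG := T ⊔ Subgroup.closure {sA, sB}
  let N : Subgroup Γ :=
    { carrier := {w | ∃ c ∈ C, ∃ d ∈ Dh, w = c * d}
      one_mem' := ⟨1, one_mem _, 1, one_mem _, (mul_one 1).symm⟩
      mul_mem' := by
        rintro _ _ ⟨c, hc', d, hd, rfl⟩ ⟨c', hc'', d', hd', rfl⟩
        exact ⟨c * (d * c' * d⁻¹), mul_mem hc' (hC4 d hd c' hc''), d * d', mul_mem hd hd', by group⟩
      inv_mem' := by
        rintro _ ⟨c, hc', d, hd, rfl⟩
        refine ⟨d⁻¹ * c⁻¹ * d⁻¹⁻¹, hC4 _ (inv_mem hd) _ (inv_mem hc'), d⁻¹, inv_mem hd, by group⟩ }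
  have hCN : ∀ c ∈ C, c ∈ N := fun c hc' => ⟨c, hc', 1, one_mem _, (mul_one c).symm⟩
  have hDN : ∀ d ∈ Dh, d ∈ N := fun d hd => ⟨1, one_mem _, d, hd, (one_mul d).symm⟩
  have hmapN : ∀ w ∈ N, σ w ∈ NG := by
    rintro _ ⟨c, hc', d, hd, rfl⟩
    rw [map_mul]
    refine mul_mem (Subgroup.mem_sup_left (hC1 c hc')) ?_
    have hle : Dh ≤ (Subgroup.closure {sA, sB}).comap σ := by
      refine (Subgroup.closure_le _).2 ?_
      rintro g (rfl | rfl) <;> rw [SetLike.mem_coe, Subgroup.mem_comap]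
      · rw [P.map _ (isPElem_of_sq D.sqA)]; exact Subgroup.subset_closure (Or.inl rfl)
      · rw [P.map _ (isPElem_of_sq D.sqB)]; exact Subgroup.subset_closure (Or.inr rfl)
    exact Subgroup.mem_sup_right (hle hd)
  have hN1 : ∀ w ∈ N, σ w = 1 → w = 1 := by
    rintro _ ⟨c, hc', d, hd, rfl⟩ h1
    rw [map_mul, mul_eq_one_iff_eq_inv'] at h1
    have hd1 := dih_eq_one P hc hodd D hd (h1 ▸ inv_mem (hC1 c hc'))
    subst hd1
    rw [mul_one]
    refine hC3 c hc' ?_
    rw [map_one, eq_comm, inv_eq_one] at h1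
    exact h1
  set S : Set Γ := {g | ∃ u ∈ U, ∃ w ∈ N, ∃ v ∈ U, g = l u * w * l v}
  have hSU : ∀ u ∈ U, ∀ g ∈ S, l u * g ∈ S := by
    rintro u hu _ ⟨u', hu', w, hw, v, hv, rfl⟩
    exact ⟨u * u', mul_mem hu hu', w, hw, v, hv, by rw [mulU P D hu hu']; group⟩
  have hSC : ∀ c ∈ C, ∀ g ∈ S, c * g ∈ S := by
    rintro c hc' _ ⟨u', hu', w, hw, v, hv, rfl⟩
    exact ⟨_, D.normT _ (hC1 c hc') _ hu', c * w, mul_mem (hCN c hc') hw, v, hv, by
      rw [← conjU P D hu' c]; group⟩
  have hSs : ∀ (s : G) (X : Subgroup G), Node U T NG s X → l s ∈ Dh → Ident l σ U C s X →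
      ∀ g ∈ S, l s * g ∈ S := by
    rintro s X Nd hs' hI _ ⟨u, hu, w, hw, v, hv, rfl⟩
    have hls := lift_sq P Nd.sq
    have hσs := P.map _ (isPElem_of_sq Nd.sq)
    have hsi : s⁻¹ = s := inv_eq_of_mul_eq_one_right Nd.sq
    obtain ⟨x, hx, u', hu', hsu, rfl⟩ := Nd.split u hu
    suffices hmain : l s * l x * w * l v ∈ S by
      have e : l s * (l (u' * x) * w * l v) = l (s * u' * s) * (l s * l x * w * l v) := by
        have h1 := conjU P D hu' (l s)
        rw [hσs, hsi, lift_inv_sq P Nd.sq] at h1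
        rw [mulU P D hu' (Nd.le hx), ← h1]
        calc l s * (l u' * l x * w * l v) = l s * l u' * (l x * w * l v) := by group
          _ = l s * l u' * (l s * l s) * (l x * w * l v) := by rw [hls, mul_one]
          _ = _ := by group
      rw [e]
      exact hSU _ hsu _ hmain
    rcases Nd.sign _ (hmapN w hw) with hpos | hneg
    · refine ⟨1, one_mem _, l s * w, mul_mem (hDN _ hs') hw, _, mul_mem (hpos x hx) hv, ?_⟩
      rw [P.one, one_mul, mulU P D (hpos x hx) hv, mul_assoc (l s) (l x),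
        lifted_step (mapU P D (Nd.le hx)) (isPElem_of_mem D.pU (Nd.le hx)) P]
      group
    by_cases hx1 : x = 1
    · subst hx1
      exact ⟨1, one_mem _, l s * w, mul_mem (hDN _ hs') hw, v, hv, by rw [P.one]; group⟩
    obtain ⟨u₁, hu₁, c, hcC, b, hb, e⟩ := hI x hx hx1
    have hy : l s * l b * l s = l (s * b * s) := by
      have h1 := conjU P D (Nd.le hb) (l s)
      rwa [hσs, hsi, lift_inv_sq P Nd.sq] at h1
    have hpy : IsPElem 2 (s * b * s) := by
      have := IsPElem.conj (isPElem_of_mem D.pU (Nd.le hb)) s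
      rwa [hsi] at this
    refine ⟨u₁, hu₁, c * w, mul_mem (hCN c hcC) hw, _, mul_mem (hneg b hb) hv, ?_⟩
    rw [mulU P D (hneg b hb) hv]
    calc l s * l x * w * l v = l s * l x * (l s * l s) * w * l v := by rw [hls, mul_one]
      _ = (l s * l x * l s) * l s * w * l v := by group
      _ = l u₁ * c * (l s * l b * l s * w) * l v := by rw [e]; group
      _ = _ := by rw [hy, lifted_step (P.map _ hpy) hpy P]; group
  -- the elements keeping `S` form a subgroup
  let M : Submonoid Γ :=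
    { carrier := {g | ∀ s ∈ S, g * s ∈ S}
      one_mem' := fun s hs => by rwa [one_mul]
      mul_mem' := fun {a b} ha hb s hs => by rw [mul_assoc]; exact ha _ (hb _ hs) }
  have hMinv : ∀ g ∈ M, g⁻¹ ∈ M := fun g hg => by
    have e : g⁻¹ = g ^ (orderOf g - 1) := by
      refine inv_eq_of_mul_eq_one_right ?_
      rw [← pow_succ', Nat.sub_add_cancel (orderOf_pos g), pow_orderOf_eq_one]
    rw [e]; exact pow_mem hg _
  let H : Subgroup Γ := { M with inv_mem' := fun {g} hg => hMinv g hg }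
  have hA' : l sA ∈ H := hSs sA XA NA (Subgroup.subset_closure (Or.inl rfl)) (hA C hC1 hC2 hC3 hC4)
  have hB' : l sB ∈ H := hSs sB XB NB (Subgroup.subset_closure (Or.inr rfl)) (hB C hC1 hC2 hC3 hC4)
  have hone : (1 : Γ) ∈ S := ⟨1, one_mem _, 1, one_mem _, 1, one_mem _, by simp [P.one]⟩
  have hHker : ∀ z ∈ H, σ z = 1 → z = 1 := by
    intro z hz hz1
    obtain ⟨u, hu, w, hw, v, hv, e⟩ : z ∈ S := by simpa using hz 1 hone
    have h1 : u * σ w * v = 1 := by
      rw [← hz1, e, map_mul, map_mul, mapU P D hu, mapU P D hv]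
    have hwU : σ w ∈ U := by
      rw [show σ w = u⁻¹ * v⁻¹ by
        rw [eq_inv_mul_iff_mul_eq, eq_inv_iff_mul_eq_one]; exact h1]
      exact mul_mem (inv_mem hu) (inv_mem hv)
    have hw1 : σ w = 1 := D.inter _ hwU (hmapN w hw)
    rw [e, hN1 w hw hw1, mul_one, ← mulU P D hu hv, show u * v = 1 by rwa [hw1, mul_one] at h1, P.one]
  have htop : H.map σ = ⊤ := by
    rw [eq_top_iff, ← D.gen]
    refine sup_le (fun u hu => ⟨l u, hSU u hu, mapU P D hu⟩) (sup_le (fun t ht => ?_) ?_)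
    · obtain ⟨c, hc', e⟩ := hC2 t ht
      exact ⟨c, hSC c hc', e⟩
    · rw [Subgroup.closure_le]
      rintro g (rfl | rfl)
      exacts [⟨_, hA', P.map _ (isPElem_of_sq D.sqA)⟩, ⟨_, hB', P.map _ (isPElem_of_sq D.sqB)⟩]
  have hle : _root_.commutator Γ ≤ H := by
    rw [commutator_def, Subgroup.commutator_le]
    intro x _ y _
    obtain ⟨x', hx', ex⟩ := (htop ▸ Subgroup.mem_top (σ x) : σ x ∈ H.map σ)
    obtain ⟨y', hy', ey⟩ := (htop ▸ Subgroup.mem_top (σ y) : σ y ∈ H.map σ)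
    rw [CfsgLib.SchurMult.comm_eq_of_map_eq hc ex.symm ey.symm, commutatorElement_def]
    exact mul_mem (mul_mem (mul_mem hx' hy') (inv_mem hx')) (inv_mem hy')
  exact (eq_bot_iff).2 fun z hz => Subgroup.mem_bot.2 (hHker z (hle (hσ.2.2 hz)) hz)

end CfsgLib.ReeFourMult.Engine
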