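import Cfsg.Agent.Lib.TwistedAut.ReeF4Basic
import Cfsg.Agent.Lib.ReeFourInvolutions.Classes
import Cfsg.Agent.Lib.ReeFourMult.Chain

/-!
The twelve layers of the unipotent part of `²F₄(q)` ordered by height, and torus elements separating their
characters.
-/

set_option autoImplicit false
set_option maxRecDepth 100000
set_option linter.unusedSectionVars false

namespace CfsgLib.ReeFourMult

open Cfsg.Lie
open CfsgLib.Chevalley hiding xG_mem_group rootsU_le_group
open CfsgLib.Twisted (Orb orbRoots checkOrd checkOrd_cons mem_orbRoots_cons isoF4 fullF4 f4Twist prodU_single)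
open CfsgLib.TwistedGen (Coord exists_coord)
open CfsgLib.TwistedAut (headFun headFun_eq coord_headFun torT torChar torChar_eq torChar_mul torChar_conj
  exists_crd_of_torT f4CycSet)
open CfsgLib.TwistedOrder (dataF4)
open CfsgLib.OutAut.F4Pair (full X)
open CfsgLib.ReeFourInvolutions (Setting o1 o2 o3 o4 o5 o6 o7 o8 wA wB)

/-- the orbits by height; the first entry is the root carrying the parameter -/
def orbs : List Orb := [(24, [24, 33]), (25, [25, 27]), (26, [26, 34]), (30, [28, 30]), (31, [31, 35]),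
  (41, [29, 41]), (32, [32, 37]), (42, [36, 42]), (43, [38, 43]), (45, [39, 45]), (46, [40, 46]), (47, [44, 47])]

/-- the root carrying the parameter of a layer -/
def headRt (k : ℕ) : ℕ := [24, 25, 26, 30, 31, 41, 32, 42, 43, 45, 46, 47].getD k 0

/-- all later commutators are in later layers -/
def centralCheck (D : ChevalleyDatum) : List Orb → Bool
  | [] => true
  | o :: O => ((List.range D.nroots).all fun r => !decide (D.IsPosRoot r) || (orbRoots (o :: O)).all fun s =>
      Nat.beq s r || (D.commTerms s r).all fun c => decide (c.2.1 % 2 = 0) || decide (c.1 ∈ orbRoots O)) &&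
        centralCheck D O

theorem orbs_ok : (checkOrd chevF4 isoF4.rho orbs && centralCheck chevF4 orbs &&
    (orbs.all fun o => Nat.beq o.2.length 2 && Nat.beq (isoF4.rho^[2] o.1) o.1 &&
      Nat.beq (max (isoF4.lam o.1) 1 * max (isoF4.lam (isoF4.rho o.1)) 1) 2 && decide (o.1 < chevF4.nroots)) &&
    ((List.range chevF4.nroots).all fun r => decide (chevF4.IsPosRoot r ↔ r ∈ orbRoots orbs)) &&
    (orbs.map Prod.fst == (List.range 12).map headRt)) = true := by
  decide +kernel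

theorem orbs_length : orbs.length = 12 := rfl

theorem checkOrd_drop : ∀ (L : List Orb), checkOrd chevF4 isoF4.rho L = true → ∀ k,
    checkOrd chevF4 isoF4.rho (L.drop k) = true
  | _, h, 0 => h
  | [], _, _ + 1 => rfl
  | _ :: L, h, k + 1 => checkOrd_drop L (checkOrd_cons h).2.2.2.2.2 k

theorem centralCheck_drop : ∀ (L : List Orb), centralCheck chevF4 L = true → ∀ k,
    centralCheck chevF4 (L.drop k) = true
  | _, h, 0 => h
  | [], _, _ + 1 => rfl
  | _ :: L, h, k + 1 => centralCheck_drop L (by simp only [centralCheck, Bool.and_eq_true] at h; exact h.2) k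

/-- the orbit of layer `k` -/
def orb (k : ℕ) : Orb := orbs.getD k (0, [])

theorem drop_eq {k : ℕ} (hk : k < 12) : orbs.drop k = orb k :: orbs.drop (k + 1) := by
  rw [List.drop_eq_getElem_cons (l := orbs) (i := k) (by simpa [orbs] using hk), orb,
    List.getD_eq_getElem _ _ (by simpa [orbs] using hk)]

theorem ord_k {k : ℕ} (hk : k < 12) :
    checkOrd chevF4 isoF4.rho (orb k :: orbs.drop (k + 1)) = true := by
  rw [← drop_eq hk]
  have h := orbs_ok
  simp only [Bool.and_eq_true] at h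
  exact checkOrd_drop _ h.1.1.1.1 k

theorem central_k {k : ℕ} (hk : k < 12) : ∀ r, chevF4.IsPosRoot r → ∀ s ∈ orbRoots (orb k :: orbs.drop (k + 1)),
    s ≠ r → ∀ c ∈ chevF4.commTerms s r, c.2.1 % 2 = 0 ∨ c.1 ∈ orbRoots (orbs.drop (k + 1)) := by
  intro r hr s hs hne c hc
  have h := orbs_ok
  simp only [Bool.and_eq_true] at h
  have h2 := centralCheck_drop _ h.1.1.1.2 k
  rw [drop_eq hk] at h2
  simp only [centralCheck, Bool.and_eq_true, List.all_eq_true, List.mem_range, Bool.or_eq_true,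
    Bool.not_eq_true', decide_eq_false_iff_not, decide_eq_true_eq] at h2
  exact (((h2.1 r hr.1).resolve_left (not_not_intro hr)) s hs).resolve_left
    (fun e => hne (Nat.eq_of_beq_eq_true e)) c hc

theorem orb_spec {k : ℕ} (hk : k < 12) : (orb k).2.length = 2 ∧ isoF4.rho^[2] (orb k).1 = (orb k).1 ∧
    max (isoF4.lam (orb k).1) 1 * max (isoF4.lam (isoF4.rho (orb k).1)) 1 = 2 ∧ (orb k).1 < chevF4.nroots := by
  have h := orbs_ok
  simp only [Bool.and_eq_true, List.all_eq_true, decide_eq_true_eq] at h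
  have hmem : orb k ∈ orbs := by
    rw [orb, List.getD_eq_getElem _ _ (by simpa [orbs] using hk)]
    exact List.getElem_mem _
  obtain ⟨⟨⟨h1, h2⟩, h3⟩, h4⟩ := h.1.1.2 _ hmem
  exact ⟨Nat.eq_of_beq_eq_true h1, Nat.eq_of_beq_eq_true h2, Nat.eq_of_beq_eq_true h3, h4⟩

theorem orb_fst {k : ℕ} (hk : k < 12) : (orb k).1 = headRt k := by
  have h := orbs_ok
  simp only [Bool.and_eq_true, beq_iff_eq] at h
  have e := congrArg (fun l : List ℕ => l.getD k 0) h.2
  simp only [List.getD_eq_getElem?_getD, List.getElem?_map] at e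
  rw [orb, List.getD_eq_getElem _ _ (by simpa [orbs] using hk)]
  rw [List.getElem?_eq_getElem (by simpa [orbs] using hk), List.getElem?_range hk] at e
  simpa using e

variable (K : Type*) [Field K] (m : ℕ)

/-- the terms of the chain -/
def lay (k : ℕ) : Subgroup ↥(twistedF4 K (2 ^ m)) :=
  (rootsU chevF4 K {r | r ∈ orbRoots (orbs.drop k)}).subgroupOf (twistedF4 K (2 ^ m))

/-- the head of a layer -/
noncomputable def head (k : ℕ) : ↥(twistedF4 K (2 ^ m)) → K :=
  headFun fullF4.toStd (twistedF4 K (2 ^ m)) (orb k) (orbs.drop (k + 1))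

/-- the character of a layer -/
noncomputable def lchar (k : ℕ) : ↥(twistedF4 K (2 ^ m)) → K :=
  torChar (twistedF4 K (2 ^ m)) (headRt k)

variable {K m}

theorem mem_lay {k : ℕ} {g : ↥(twistedF4 K (2 ^ m))} :
    g ∈ lay K m k ↔ (g : GL chevF4.Idx K) ∈ rootsU chevF4 K {r | r ∈ orbRoots (orbs.drop k)} := Iff.rfl

theorem lay_zero : lay K m 0 = (chevF4.posUnipotent K).subgroupOf (twistedF4 K (2 ^ m)) := by
  have h := orbs_ok
  simp only [Bool.and_eq_true, List.all_eq_true, List.mem_range, decide_eq_true_eq] at h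
  have e : {r | r ∈ orbRoots (orbs.drop 0)} = {r | chevF4.IsPosRoot r} := by
    ext r
    simp only [List.drop_zero, Set.mem_ofPred_eq]
    refine ⟨fun hr => ?_, fun hr => (h.1.2 r hr.1).1 hr⟩
    exact ((checkOrd_cons (o := orb 0) (O := orbs.drop 1) (ord_k (by norm_num))).2.2.1 r
      (by rw [← drop_eq (by norm_num), List.drop_zero]; exact hr)).1
  rw [lay, e, ← posUnipotent_eq]

theorem orb_pos {k : ℕ} (hk : k < 12) {r : ℕ} (hr : r ∈ orbRoots (orb k :: orbs.drop (k + 1))) :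
    chevF4.IsPosRoot r :=
  ((checkOrd_cons (ord_k hk)).2.2.1 r hr).1

/-- A conjugate of a root element differs from it in the next term. -/
theorem conj_gen [CharP K 2] {k : ℕ} (hk : k < 12) {r : ℕ} (hr : chevF4.IsPosRoot r) {s : ℕ}
    (hs : s ∈ orbRoots (orb k :: orbs.drop (k + 1))) (hne : s ≠ r) (t u : K) :
    ∃ P ∈ rootsU chevF4 K {r | r ∈ orbRoots (orbs.drop (k + 1))},
      X r t * X s u * (X r t)⁻¹ = X s u * (X r t * P * (X r t)⁻¹) := by
  have hsp := orb_pos hk hs
  refine ⟨((chevF4.commTerms s r).map fun c => X c.1 ((c.2.1 : K) * u ^ c.2.2.1 * t ^ c.2.2.2)).prod, ?_, ?_⟩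
  rotate_left
  · have e := CfsgLib.ReeFourInvolutions.swap (K := K) hsp.1 hr.1 (Ne.symm hne) (fullF4.toStd.ne_neg hsp hr) u t 1
    simp only [mul_one] at e
    rw [e]
    simp only [mul_assoc]
  · refine Subgroup.list_prod_mem _ fun x hx => ?_
    obtain ⟨c, hc, rfl⟩ := List.mem_map.1 hx
    rcases central_k hk r hr s hs hne c hc with h | h
    · obtain ⟨d, hd⟩ := Int.dvd_of_emod_eq_zero h
      have h0 : ((c.2.1 : ℤ) : K) = 0 := by rw [hd, Int.cast_mul, Int.cast_ofNat, CharTwo.two_eq_zero, zero_mul]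
      show X c.1 ((c.2.1 : K) * u ^ c.2.2.1 * t ^ c.2.2.2) ∈ _
      rw [h0, zero_mul, zero_mul, CfsgLib.OutAut.F4Pair.X, xG_zero]
      exact one_mem _
    · exact xG_mem_rootsU fullF4.cert h _

theorem norm_drop [CharP K 2] : ∀ (d k : ℕ), k + d = 12 → ∀ r, chevF4.IsPosRoot r → ∀ (t : K),
    ∀ v ∈ rootsU chevF4 K {r | r ∈ orbRoots (orbs.drop k)},
      X r t * v * (X r t)⁻¹ ∈ rootsU chevF4 K {r | r ∈ orbRoots (orbs.drop k)} := by
  intro d
  induction d with
  | zero =>
    intro k hk r _ t v hv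
    rw [List.drop_eq_nil_of_le (by rw [orbs_length]; omega)] at hv ⊢
    have hbot : rootsU chevF4 K {s | s ∈ orbRoots ([] : List Orb)} = ⊥ := by
      rw [eq_bot_iff, rootsU_le_iff fullF4.cert]
      intro s hs
      simp [orbRoots] at hs
    rw [hbot, Subgroup.mem_bot] at hv
    rw [hv, mul_one, mul_inv_cancel]
    exact one_mem _
  | succ d ih =>
    intro k hk r hr t
    refine CfsgLib.Chevalley.rootsU_conj_le fullF4.cert fun s hs u => ?_
    rw [drop_eq (by omega)] at hs ⊢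
    by_cases hne : s = r
    · subst hne
      rw [xG_mul, xG_inv, xG_mul, show t + u + -t = u by ring]
      exact xG_mem_rootsU fullF4.cert hs u
    · obtain ⟨P, hP, e⟩ := conj_gen (k := k) (by omega) hr hs hne t u
      rw [e]
      exact mul_mem (xG_mem_rootsU fullF4.cert hs u)
        (CfsgLib.Twisted.layer_le fullF4.toStd _ _ (ord_k (by omega)) (ih (k + 1) (by omega) r hr t P hP))

/-- commutators with the whole unipotent part move down -/
theorem comm_drop [CharP K 2] {k : ℕ} (hk : k < 12) {g h : GL chevF4.Idx K}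
    (hg : g ∈ chevF4.posUnipotent K) (hh : h ∈ rootsU chevF4 K {r | r ∈ orbRoots (orbs.drop k)}) :
    g * h * g⁻¹ * h⁻¹ ∈ rootsU chevF4 K {r | r ∈ orbRoots (orbs.drop (k + 1))} := by
  rw [drop_eq hk] at hh
  rw [posUnipotent_eq] at hg
  set N := rootsU chevF4 K {r | r ∈ orbRoots (orbs.drop (k + 1))}
  have norm : ∀ x ∈ rootsU chevF4 K {r | chevF4.IsPosRoot r}, ∀ v ∈ N, x * v * x⁻¹ ∈ N := by
    intro x hx
    induction hx using rootsU_induction fullF4.cert with
    | h1 => simp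
    | hx r hr t => exact norm_drop (11 - k) (k + 1) (by omega) r hr t
    | hmul a b _ _ ha hb =>
      intro v hv
      have := ha _ (hb v hv)
      rwa [show a * (b * v * b⁻¹) * a⁻¹ = a * b * v * (a * b)⁻¹ by group] at this
  have hoO : rootsU chevF4 K {r | r ∈ orbRoots (orb k :: orbs.drop (k + 1))} ≤
      rootsU chevF4 K {r | chevF4.IsPosRoot r} := rootsU_mono fun r hr => orb_pos hk hr
  induction hh using rootsU_induction fullF4.cert with
  | h1 => simp
  | hx s hs u =>
    induction hg using rootsU_induction fullF4.cert with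
    | h1 => simp
    | hx r hr t =>
      by_cases hne : s = r
      · subst hne
        rw [xG_mul, xG_inv, xG_mul, show t + u + -t = u by ring, mul_inv_cancel]
        exact one_mem _
      · obtain ⟨P, hP, e⟩ := conj_gen hk hr hs hne t u
        rw [e]
        exact norm _ (hoO (xG_mem_rootsU fullF4.cert hs u)) _ (norm _ (xG_mem_rootsU fullF4.cert (S := {r | chevF4.IsPosRoot r}) hr t) P hP)
    | hmul a b ha _ iha ihb =>
      have := mul_mem (norm a ha _ ihb) iha
      refine (congrArg (· ∈ N) ?_).mp this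
      group
  | hmul a b ha _ iha ihb =>
    have := mul_mem iha (norm a (hoO ha) _ ihb)
    refine (congrArg (· ∈ N) ?_).mp this
    group

theorem coord_single {k : ℕ} (hk : k < 12) {r : ℕ} (hr : r ∈ orbRoots (orb k :: orbs.drop (k + 1))) (x : K) :
    Coord fullF4.toStd (orb k) (orbs.drop (k + 1)) (xG fullF4.cert r x) (if r = (orb k).1 then x else 0) := by
  obtain ⟨h1, -, -, h4, -, -⟩ := checkOrd_cons (ord_k hk)
  rcases mem_orbRoots_cons.1 hr with hr' | hr'
  · refine ⟨Pi.single r x, 1, one_mem _, ?_, ?_⟩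
    · rw [prodU_single fullF4.cert _ hr' (h1.imp fun h => Nat.ne_of_lt h), one_mul]
    · simp only [Pi.single_apply, eq_comm]
  · have hne : r ≠ (orb k).1 := fun e => (h4 _ ((checkOrd_cons (ord_k hk)).2.1)).1 (e ▸ hr')
    rw [if_neg hne]
    exact CfsgLib.TwistedGen.coord_of_layer fullF4.toStd (ord_k hk) (xG_mem_rootsU fullF4.cert hr' x)

/-- The head of a product of four root elements. -/
theorem head_four {k : ℕ} (hk : k < 12) (g : ↥(twistedF4 K (2 ^ m))) {r₁ r₂ r₃ r₄ : ℕ} {x₁ x₂ x₃ x₄ : K}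
    (e : (g : GL chevF4.Idx K) = X r₁ x₁ * X r₂ x₂ * X r₃ x₃ * X r₄ x₄)
    (h : [r₁, r₂, r₃, r₄].all (fun r => decide (r ∈ orbRoots (orb k :: orbs.drop (k + 1)))) = true) :
    g ∈ lay K m k ∧ head K m k g = (if r₁ = (orb k).1 then x₁ else 0) + (if r₂ = (orb k).1 then x₂ else 0) +
      (if r₃ = (orb k).1 then x₃ else 0) + (if r₄ = (orb k).1 then x₄ else 0) := by
  simp only [List.all_cons, List.all_nil, Bool.and_true, Bool.and_eq_true, decide_eq_true_eq] at h
  have hc := ((coord_single hk h.1 x₁).mul fullF4.toStd (ord_k hk) (coord_single hk h.2.1 x₂)).mul fullF4.toStd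
    (ord_k hk) (coord_single hk h.2.2.1 x₃) |>.mul fullF4.toStd (ord_k hk) (coord_single hk h.2.2.2 x₄)
  rw [← e] at hc
  refine ⟨?_, headFun_eq fullF4.toStd (ord_k hk) hc⟩
  rw [mem_lay, drop_eq hk]
  exact hc.mem fullF4.toStd (ord_k hk)

/-- The head of a product of two root elements. -/
theorem head_two {k : ℕ} (hk : k < 12) (g : ↥(twistedF4 K (2 ^ m))) {r₁ r₂ : ℕ} {x₁ x₂ : K}
    (e : (g : GL chevF4.Idx K) = X r₁ x₁ * X r₂ x₂)
    (h : [r₁, r₂].all (fun r => decide (r ∈ orbRoots (orb k :: orbs.drop (k + 1)))) = true) :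
    g ∈ lay K m k ∧ head K m k g = (if r₁ = (orb k).1 then x₁ else 0) + (if r₂ = (orb k).1 then x₂ else 0) := by
  simp only [List.all_cons, List.all_nil, Bool.and_true, Bool.and_eq_true, decide_eq_true_eq] at h
  have hc := (coord_single hk h.1 x₁).mul fullF4.toStd (ord_k hk) (coord_single hk h.2 x₂)
  rw [← e] at hc
  refine ⟨?_, headFun_eq fullF4.toStd (ord_k hk) hc⟩
  rw [mem_lay, drop_eq hk]
  exact hc.mem fullF4.toStd (ord_k hk)

section elements

variable (σ : K →+* K)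

/-- a representative of a layer -/
noncomputable def rep (k : ℕ) (a : K) : GL chevF4.Idx K :=
  [o1 σ a, o8 σ a 0, o2 σ a 0, o8 σ 0 a, o6 σ a 0, o4 σ a 0, o7 σ a, o2 σ 0 a, o3 σ a, o5 σ a, o6 σ 0 a,
    o4 σ 0 a].getD k 1

variable {σ} [CharP K 2] (S : Setting σ m)
include S

theorem rep_mem (k : ℕ) (a : K) : rep σ k a ∈ twistedF4 K (2 ^ m) := by
  obtain ⟨p2, p3, p4, p5, p6, p7⟩ := S.orbit_mem a a 0
  obtain ⟨q2, -, q4, -, q6, -⟩ := S.orbit_mem a 0 a
  unfold rep
  rcases lt_or_ge k 12 with hk | hk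
  · interval_cases k
    exacts [(S.mem_pair a).1, S.mem_o8 a 0, p2, S.mem_o8 0 a, p6, p4, p7, q2, p3, p5, q6, q4]
  · rw [List.getD_eq_default _ _ (by simpa using hk)]
    exact one_mem _

theorem rep_head {k : ℕ} (hk : k < 12) (a : K) :
    (⟨rep σ k a, rep_mem S k a⟩ : ↥(twistedF4 K (2 ^ m))) ∈ lay K m k ∧
      head K m k ⟨rep σ k a, rep_mem S k a⟩ = a := by
  interval_cases k
  · refine (head_two (k := 0) (by norm_num) _ (r₁ := 33) (r₂ := 24) rfl (by decide +kernel)).imp id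
      fun e => e.trans ?_
    simp [show (orb 0).1 = 24 from rfl]
  · refine (head_four (k := 1) (by norm_num) _ (r₁ := 27) (r₂ := 25) (r₃ := 28) (r₄ := 30) rfl
      (by decide +kernel)).imp id fun e => e.trans ?_
    simp [show (orb 1).1 = 25 from rfl]
  · refine (head_four (k := 2) (by norm_num) _ (r₁ := 34) (r₂ := 26) (r₃ := 36) (r₄ := 42) rfl
      (by decide +kernel)).imp id fun e => e.trans ?_
    simp [show (orb 2).1 = 26 from rfl]
  · refine (head_two (k := 3) (by norm_num) _ (r₁ := 28) (r₂ := 30) (x₁ := σ a) (x₂ := a) ?_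
      (by decide +kernel)).imp id fun e => e.trans ?_
    · show o8 σ 0 a = _
      simp [o8, map_zero, xG_zero]
    simp [show (orb 3).1 = 30 from rfl]
  · refine (head_four (k := 4) (by norm_num) _ (r₁ := 35) (r₂ := 31) (r₃ := 40) (r₄ := 46) rfl
      (by decide +kernel)).imp id fun e => e.trans ?_
    simp [show (orb 4).1 = 31 from rfl]
  · refine (head_four (k := 5) (by norm_num) _ (r₁ := 29) (r₂ := 41) (r₃ := 44) (r₄ := 47) rfl
      (by decide +kernel)).imp id fun e => e.trans ?_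
    simp [show (orb 5).1 = 41 from rfl]
  · refine (head_two (k := 6) (by norm_num) _ (r₁ := 37) (r₂ := 32) rfl (by decide +kernel)).imp id
      fun e => e.trans ?_
    simp [show (orb 6).1 = 32 from rfl]
  · refine (head_two (k := 7) (by norm_num) _ (r₁ := 36) (r₂ := 42) (x₁ := σ a) (x₂ := a) ?_
      (by decide +kernel)).imp id fun e => e.trans ?_
    · show o2 σ 0 a = _
      simp [o2, map_zero, xG_zero]
    simp [show (orb 7).1 = 42 from rfl]
  · refine (head_two (k := 8) (by norm_num) _ (r₁ := 38) (r₂ := 43) rfl (by decide +kernel)).imp id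
      fun e => e.trans ?_
    simp [show (orb 8).1 = 43 from rfl]
  · refine (head_two (k := 9) (by norm_num) _ (r₁ := 39) (r₂ := 45) rfl (by decide +kernel)).imp id
      fun e => e.trans ?_
    simp [show (orb 9).1 = 45 from rfl]
  · refine (head_two (k := 10) (by norm_num) _ (r₁ := 40) (r₂ := 46) (x₁ := σ a) (x₂ := a) ?_
      (by decide +kernel)).imp id fun e => e.trans ?_
    · show o6 σ 0 a = _
      simp [o6, map_zero, xG_zero]
    simp [show (orb 10).1 = 46 from rfl]
  · refine (head_two (k := 11) (by norm_num) _ (r₁ := 44) (r₂ := 47) (x₁ := σ a) (x₂ := a) ?_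
      (by decide +kernel)).imp id fun e => e.trans ?_
    · show o4 σ 0 a = _
      simp [o4, map_zero, xG_zero]
    simp [show (orb 11).1 = 47 from rfl]

end elements

/-! ### torus elements -/

/-- the word of the monomial element of the orbit of type B₂ -/
def wlB : List (Fin chevF4.rank) := [⟨1, by decide⟩, ⟨2, by decide⟩, ⟨1, by decide⟩, ⟨2, by decide⟩]

/-- the exponents at the layers -/
def expTab : List ((ℤ × ℤ) × ℤ × ℤ) := [((0, 2), (-2, 0)), ((0, -1), (0, 1)), ((0, 1), (-2, 1)), ((-2, -1), (2, 1)),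
  ((-2, 1), (0, 1)), ((2, -1), (2, -1)), ((-2, 0), (0, 2)), ((2, 1), (0, -1)), ((2, 0), (0, 0)), ((0, 0), (2, 0)),
  ((0, -1), (2, 1)), ((0, 1), (0, 1))]

theorem expTab_ok : ∀ k : Fin 12, ∀ r : Fin chevF4.nroots, (r : ℕ) = headRt k →
    (wPerm fullF4.cert wlB) ((wPerm fullF4.cert wlB) r) = r ∧
    expTab.getD k ((0, 0), (0, 0)) = ((chevF4.cartan 0 r, chevF4.cartan 3 r),
      (chevF4.cartan 0 ((wPerm fullF4.cert wlB) r : Fin chevF4.nroots),
       chevF4.cartan 3 ((wPerm fullF4.cert wlB) r : Fin chevF4.nroots))) := by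
  decide +kernel

/-- the exponent of the first parameter -/
def expE (m : ℕ) (k : ℕ) : ℤ := 2 ^ m * (expTab.getD k ((0, 0), (0, 0))).1.1 + (expTab.getD k ((0, 0), (0, 0))).1.2

/-- the exponent of the second parameter -/
def expF (m : ℕ) (k : ℕ) : ℤ := 2 ^ m * (expTab.getD k ((0, 0), (0, 0))).2.1 + (expTab.getD k ((0, 0), (0, 0))).2.2

theorem wB_eq : (wB : GL chevF4.Idx K) = nW fullF4.cert K wlB := by
  simp [wB, wlB, nW_cons, nW_nil, mul_assoc, show chevF4.simple 1 = 27 from rfl,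
    show chevF4.simple 2 = 25 from rfl]

theorem exists_torus_one [Fintype K] [CharP K 2] (z : Kˣ) :
    ∃ t ∈ torT (twistedF4 K (2 ^ m)), ∀ r < chevF4.nroots, torChar (twistedF4 K (2 ^ m)) r t =
      ((z ^ ((2 : ℤ) ^ m * chevF4.cartan 0 r + chevF4.cartan 3 r) : Kˣ) : K) := by
  let h := fullF4
  have hd := CfsgLib.TwistedAut.f4Aut_ok
  simp only [Bool.and_eq_true, decide_eq_true_eq, beq_iff_eq, List.map_cons, List.map_nil, List.range_succ,
    List.range_zero, List.nil_append, List.cons_append, List.cons.injEq, and_true] at hd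
  obtain ⟨⟨⟨⟨⟨-, -⟩, o14⟩, n1, n4⟩, s0, -, -, s3⟩, -⟩ := hd
  set c : Fin chevF4.rank → Kˣ := (![z ^ 2 ^ m, 1, 1, z] : Fin 4 → Kˣ) with hc
  have hwG : ∀ t : K, CfsgLib.Twisted.wordG h.cert (f4PairWord (2 ^ m) f4p1 f4p4 t) ∈ twistedF4 K (2 ^ m) ∧
      CfsgLib.Twisted.wordG h.cert (f4PairWord (2 ^ m) f4m1 f4m4 t) ∈ twistedF4 K (2 ^ m) := fun t =>
    ⟨CfsgLib.Twisted.wordG_mem_gen _ (Or.inl ⟨t, Or.inl rfl⟩),
      CfsgLib.Twisted.wordG_mem_gen _ (Or.inl ⟨t, Or.inr rfl⟩)⟩
  have hcG : torusHom chevF4 K c ∈ twistedF4 K (2 ^ m) := by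
    have hsplit : torusHom chevF4 K c =
        ([(f4p1, (z : K) ^ 2 ^ m), (f4p4, (z : K))].map fun p => hG h.cert p.1 p.2).prod := by
      simp only [List.map_cons, List.map_nil, List.prod_cons, List.prod_nil, mul_one]
      rw [show f4p1 = chevF4.simple 0 from s0.symm, show f4p4 = chevF4.simple 3 from s3.symm,
        ← Units.val_pow_eq_pow_val,
        show hG h.cert (chevF4.simple 0) ((z ^ 2 ^ m : Kˣ) : K) =
            torusHom chevF4 K (Pi.mulSingle (0 : Fin 4) (z ^ 2 ^ m)) from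
          (torusHom_mulSingle h.cert (0 : Fin 4) (z ^ 2 ^ m)).symm,
        show hG h.cert (chevF4.simple 3) (z : K) = torusHom chevF4 K (Pi.mulSingle (3 : Fin 4) z) from
          (torusHom_mulSingle h.cert (3 : Fin 4) z).symm, ← map_mul]
      have key : (![z ^ 2 ^ m, 1, 1, z] : Fin 4 → Kˣ) = Pi.mulSingle 0 (z ^ 2 ^ m) * Pi.mulSingle 3 z := by
        funext k
        fin_cases k <;> simp
      exact congrArg (torusHom chevF4 K) key
    rw [hsplit]
    refine CfsgLib.Twisted.prod_hG_mem h.cert ?_ (hwG _).1 ?_ ?_ ?_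
    · simp only [List.map_cons, List.map_nil, List.pairwise_cons, List.mem_cons, List.not_mem_nil, or_false,
        forall_eq, IsEmpty.forall_iff, implies_true, List.Pairwise.nil, and_true]
      exact CfsgLib.Twisted.orthPair_of_check h.cert CfsgLib.Twisted.rootCertF4 o14
    · simpa [CfsgLib.Twisted.negPart, f4PairWord, n1, n4, inv_pow, CharTwo.neg_eq] using (hwG (-(z : K)⁻¹)).2
    · simpa [f4PairWord, CharTwo.neg_eq] using (hwG 1).1
    · simpa [CfsgLib.Twisted.negPart, f4PairWord, n1, n4, CharTwo.neg_eq] using (hwG 1).2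
  refine ⟨⟨_, hcG⟩, torus_mem_diagonal h c, fun r hr => ?_⟩
  rw [torChar_eq hr (c := c) rfl]
  refine congrArg Units.val ?_
  show ∏ k : Fin 4, c k ^ chevF4.cartan k r = _
  rw [Fin.prod_univ_four]
  show (z ^ 2 ^ m) ^ chevF4.cartan 0 r * (1 : Kˣ) ^ chevF4.cartan 1 r * (1 : Kˣ) ^ chevF4.cartan 2 r *
    z ^ chevF4.cartan 3 r = _
  rw [one_zpow, one_zpow, mul_one, mul_one, zpow_add, zpow_mul,
    show ((2 : ℤ) ^ m) = ((2 ^ m : ℕ) : ℤ) by push_cast; ring, zpow_natCast]

/-- Torus elements with two parameters. -/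
theorem exists_torus [Fintype K] [CharP K 2] {σ : K →+* K} (S : Setting σ m) (z w : Kˣ) :
    ∃ t ∈ torT (twistedF4 K (2 ^ m)), ∀ k < 12, lchar K m k t = ((z ^ expE m k * w ^ expF m k : Kˣ) : K) := by
  obtain ⟨t, ht, ht'⟩ := exists_torus_one (K := K) z
  obtain ⟨s, hs, hs'⟩ := exists_torus_one (K := K) w
  let n : ↥(twistedF4 K (2 ^ m)) := ⟨wB, S.wB_mem⟩
  have hn : (n : GL chevF4.Idx K) ∈ chevF4.monomialSubgroup K := by
    show (wB : GL chevF4.Idx K) ∈ _
    rw [wB_eq]; exact nW_mem_monomial fullF4 wlB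
  obtain ⟨η, hA⟩ : ∃ η, Acts fullF4.cert (n : GL chevF4.Idx K) (wPerm fullF4.cert wlB) η := by
    obtain ⟨η, hη⟩ := acts_nW (F := K) fullF4 wlB
    exact ⟨η, by show Acts _ (wB : GL chevF4.Idx K) _ _; rw [wB_eq]; exact hη⟩
  have hns : n * s * n⁻¹ ∈ torT (twistedF4 K (2 ^ m)) := by
    obtain ⟨c, hc⟩ := exists_crd_of_torT fullF4 hs
    obtain ⟨c', hc', -⟩ := CfsgLib.TwistedGen.exists_conj_torus fullF4 hn hA c
    show ((n * s * n⁻¹ : ↥(twistedF4 K (2 ^ m))) : GL chevF4.Idx K) ∈ chevF4.diagonalSubgroup K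
    simp only [Subgroup.coe_mul, InvMemClass.coe_inv]
    rw [← hc, ← hc']
    exact torus_mem_diagonal fullF4 c'
  refine ⟨t * (n * s * n⁻¹), mul_mem ht hns, fun k hk => ?_⟩
  have hlt : headRt k < chevF4.nroots := by rw [← orb_fst hk]; exact (orb_spec hk).2.2.2
  obtain ⟨hinv, htab⟩ := expTab_ok ⟨k, hk⟩ ⟨headRt k, hlt⟩ rfl
  have hconj := torChar_conj fullF4 hn hA hs ((wPerm fullF4.cert wlB) ⟨headRt k, hlt⟩)
  rw [hinv] at hconj
  rw [lchar, torChar_mul fullF4 hlt ht hns, hconj, ht' _ hlt, hs' _ ((wPerm fullF4.cert wlB) ⟨headRt k, hlt⟩).isLt,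
    Units.val_mul, expE, expF]
  have htab' : expTab.getD k ((0, 0), (0, 0)) = _ := htab
  rw [htab']

/-- a power of two up to sign -/
def normOk (M : ℤ) : Bool := decide (M.natAbs ∈ [1, 2, 4, 8, 16, 32, 64, 128, 256])

/-- the test for a single exponent -/
def goodOne (p : ℤ × ℤ) : Bool := normOk ((2 * p.2) ^ 2 - 2 * p.1 ^ 2)

/-- the test for a pair of exponents -/
def goodPair (x y : (ℤ × ℤ) × ℤ × ℤ) : Bool :=
  normOk ((2 * (x.1.2 * y.2.2 - x.2.2 * y.1.2) + (x.1.1 * y.2.1 - x.2.1 * y.1.1)) ^ 2 -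
    2 * (x.1.1 * y.2.2 + x.1.2 * y.2.1 - y.1.1 * x.2.2 - x.2.1 * y.1.2) ^ 2)

theorem good_ok : ∀ k j : Fin 12, (goodOne (expTab.getD k ((0, 0), (0, 0))).1 = true ∨
      goodOne (expTab.getD k ((0, 0), (0, 0))).2 = true) ∧
    ((k : ℕ) < j → ((k : ℕ), (j : ℕ)) ∉ [(1, 3), (2, 7), (4, 10), (5, 11)] →
      goodPair (expTab.getD k ((0, 0), (0, 0))) (expTab.getD j ((0, 0), (0, 0))) = true) := by
  decide +kernel

theorem coprime_of_norm {θ a b c : ℤ} (h : normOk ((2 * a + c) ^ 2 - 2 * b ^ 2) = true) :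
    IsCoprime (a + b * θ + c * θ ^ 2) (2 * θ ^ 2 - 1) := by
  have h2 : IsCoprime (2 : ℤ) (2 * θ ^ 2 - 1) := ⟨θ ^ 2, -1, by ring⟩
  have hp : ∀ s : ℕ, IsCoprime ((2 : ℤ) ^ s) (2 * θ ^ 2 - 1) := fun s => h2.pow_left
  obtain ⟨s, hs⟩ : ∃ s : ℕ, ((2 * a + c) ^ 2 - 2 * b ^ 2).natAbs = 2 ^ s := by
    simp only [normOk, decide_eq_true_eq, List.mem_cons, List.not_mem_nil, or_false] at h
    rcases h with h | h | h | h | h | h | h | h | h
    exacts [⟨0, h⟩, ⟨1, h⟩, ⟨2, h⟩, ⟨3, h⟩, ⟨4, h⟩, ⟨5, h⟩, ⟨6, h⟩, ⟨7, h⟩, ⟨8, h⟩]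
  have hM : IsCoprime ((2 * a + c) ^ 2 - 2 * b ^ 2) (2 * θ ^ 2 - 1) := by
    rcases Int.natAbs_eq_iff.1 hs with e | e <;> rw [e] <;> push_cast
    · exact hp s
    · exact (hp s).neg_left
  obtain ⟨x, y, hxy⟩ := hM
  exact ⟨x * (2 * (2 * a + c - 2 * b * θ)), y + x * (2 * b ^ 2 - c * (2 * a + c - 2 * b * θ)),
    by linear_combination hxy⟩

variable [Fintype K] [CharP K 2] {σ : K →+* K} (S : Setting σ m)
include S

theorem exists_zpow {E : ℤ} (hE : IsCoprime E (2 * ((2 : ℤ) ^ m) ^ 2 - 1)) (u : Kˣ) : ∃ z : Kˣ, z ^ E = u := by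
  obtain ⟨a, b, hab⟩ := hE
  classical
  have hq : ((Fintype.card Kˣ : ℕ) : ℤ) = 2 * ((2 : ℤ) ^ m) ^ 2 - 1 := by
    rw [Fintype.card_units, Nat.cast_sub Fintype.card_pos, ← Nat.card_eq_fintype_card, S.card]
    push_cast
    ring
  refine ⟨u ^ a, ?_⟩
  rw [← zpow_mul, show a * E = 1 + ((Fintype.card Kˣ : ℕ) : ℤ) * (-b) by rw [hq]; linear_combination hab,
    zpow_add, zpow_one, zpow_mul, zpow_natCast, pow_card_eq_one, one_zpow, mul_one]

theorem lchar_surj {k : ℕ} (hk : k < 12) (c : K) (hc : c ≠ 0) :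
    ∃ t ∈ torT (twistedF4 K (2 ^ m)), lchar K m k t = c := by
  rcases (good_ok ⟨k, hk⟩ ⟨k, hk⟩).1 with h | h
  · obtain ⟨z, hz⟩ := exists_zpow S (E := expE m k) (by
      have := coprime_of_norm (θ := (2 : ℤ) ^ m) (a := (expTab.getD k ((0, 0), (0, 0))).1.2)
        (b := (expTab.getD k ((0, 0), (0, 0))).1.1) (c := 0) (by simpa [goodOne] using h)
      rw [expE]
      convert this using 1
      ring) (Units.mk0 c hc)
    obtain ⟨t, ht, e⟩ := exists_torus S z 1
    exact ⟨t, ht, by rw [e k hk, one_zpow, mul_one, hz, Units.val_mk0]⟩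
  · obtain ⟨z, hz⟩ := exists_zpow S (E := expF m k) (by
      have := coprime_of_norm (θ := (2 : ℤ) ^ m) (a := (expTab.getD k ((0, 0), (0, 0))).2.2)
        (b := (expTab.getD k ((0, 0), (0, 0))).2.1) (c := 0) (by simpa [goodOne] using h)
      rw [expF]
      convert this using 1
      ring) (Units.mk0 c hc)
    obtain ⟨t, ht, e⟩ := exists_torus S 1 z
    exact ⟨t, ht, by rw [e k hk, one_zpow, one_mul, hz, Units.val_mk0]⟩

theorem exists_sep (hm : 1 ≤ m) {k j : ℕ} (hkj : k < j) (hj : j < 12)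
    (hex : (k, j) ∉ [(1, 3), (2, 7), (4, 10), (5, 11)]) :
    ∃ t ∈ torT (twistedF4 K (2 ^ m)), lchar K m j t = 1 ∧ lchar K m k t ≠ 1 := by
  have h := (good_ok ⟨k, by omega⟩ ⟨j, hj⟩).2 hkj hex
  obtain ⟨c, hc0, hc1⟩ : ∃ c : K, c ≠ 0 ∧ c ≠ 1 := by
    classical
    obtain ⟨c, -, h⟩ := Finset.exists_mem_notMem_of_card_lt_card (t := (Finset.univ : Finset K)) (s := {0, 1})
      (by
        have := Finset.card_le_two (a := (0 : K)) (b := 1)
        have h8 : 2 ^ 3 ≤ 2 ^ (2 * m + 1) := Nat.pow_le_pow_right (by norm_num) (by omega)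
        rw [Finset.card_univ, ← Nat.card_eq_fintype_card, S.card]
        omega)
    simp only [Finset.mem_insert, Finset.mem_singleton, not_or] at h
    exact ⟨c, h⟩
  simp only [goodPair] at h
  obtain ⟨u, hu⟩ := exists_zpow S (E := expE m k * expF m j - expF m k * expE m j) (by
    have := coprime_of_norm (θ := (2 : ℤ) ^ m) h
    convert this using 1
    simp only [expE, expF]
    ring) (Units.mk0 c hc0)
  obtain ⟨t, ht, e⟩ := exists_torus S (u ^ expF m j) (u ^ (-expE m j))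
  refine ⟨t, ht, ?_, ?_⟩
  · rw [e j hj, ← zpow_mul, ← zpow_mul, ← zpow_add,
      show expF m j * expE m j + -expE m j * expF m j = 0 by ring, zpow_zero, Units.val_one]
  · rw [e k (by omega), ← zpow_mul, ← zpow_mul, ← zpow_add,
      show expF m j * expE m k + -expE m j * expF m k = expE m k * expF m j - expF m k * expE m j by ring, hu,
      Units.val_mk0]
    exact hc1

/-- The layers form a chain. -/
theorem chain : Chain (lay K m) (head K m) (torT (twistedF4 K (2 ^ m))) (lchar K m) 12 := by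
  have hK : Fintype.card K = 2 ^ (2 * m + 1) := by rw [← Nat.card_eq_fintype_card]; exact S.card
  have hle : ∀ k < 12, lay K m (k + 1) ≤ lay K m k := fun k hk g hg => by
    rw [mem_lay, drop_eq hk]
    exact CfsgLib.Twisted.layer_le fullF4.toStd _ _ (ord_k hk) hg
  have hle0 : ∀ k ≤ 12, lay K m k ≤ lay K m 0 := by
    intro k hk
    induction k with
    | zero => exact le_rfl
    | succ k ih => exact (hle k (by omega)).trans (ih (by omega))
  have hco : ∀ {k} (_ : k < 12) {g : ↥(twistedF4 K (2 ^ m))}, g ∈ lay K m k →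
      Coord fullF4.toStd (orb k) (orbs.drop (k + 1)) (g : GL chevF4.Idx K) (head K m k g) := fun {k} hk {g} hg =>
    coord_headFun fullF4.toStd (ord_k hk) (by rw [← drop_eq hk]; exact hg)
  refine ⟨?_, hle, hle0, fun k hk g hg h hh => ?_, fun k hk g hg h hh =>
    headFun_eq fullF4.toStd (ord_k hk) ((hco hk hg).mul fullF4.toStd (ord_k hk) (hco hk hh)),
    fun k hk g hg => ⟨fun e => ?_, fun hg' =>
      headFun_eq fullF4.toStd (ord_k hk) (CfsgLib.TwistedGen.coord_of_layer fullF4.toStd (ord_k hk) hg')⟩,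
    fun k hk a => ⟨_, (rep_head S hk a).1, (rep_head S hk a).2⟩, fun k hk t ht g hg => ?_,
    fun k hk c hc => lchar_surj S hk c hc, fun s hs t ht => ?_⟩
  · rw [eq_bot_iff]
    intro g hg
    rw [mem_lay, List.drop_eq_nil_of_le (by rw [orbs_length])] at hg
    refine Subgroup.mem_bot.2 (Subtype.ext ?_)
    have hbot : rootsU chevF4 K {s | s ∈ orbRoots ([] : List Orb)} = ⊥ := by
      rw [eq_bot_iff, rootsU_le_iff fullF4.cert]
      intro s hs
      simp [orbRoots] at hs
    rw [hbot, Subgroup.mem_bot] at hg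
    exact hg
  · rw [lay_zero] at hg
    exact comm_drop hk hg hh
  · have hc := hco hk hg
    rw [e] at hc
    exact hc.mem_layer fullF4.toStd (ord_k hk) (dataF4 hK).twist
      (by rw [(orb_spec hk).1]; exact (orb_spec hk).2.1) g.2
  · obtain ⟨c, hc⟩ := exists_crd_of_torT fullF4 ht
    have h1 := (hco hk hg).conj fullF4 (ord_k hk) c
    rw [hc] at h1
    have hmem : t * g * t⁻¹ ∈ lay K m k := by
      rw [mem_lay, drop_eq hk]
      simpa using h1.mem fullF4.toStd (ord_k hk)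
    refine ⟨hmem, ?_⟩
    rw [lchar, ← orb_fst hk, torChar_eq (orb_spec hk).2.2.2 hc]
    exact headFun_eq fullF4.toStd (ord_k hk) (by simpa using h1)
  · obtain ⟨c, hc⟩ := exists_crd_of_torT fullF4 hs
    obtain ⟨d, hd⟩ := exists_crd_of_torT fullF4 ht
    refine Subtype.ext ?_
    simp only [Subgroup.coe_mul, ← hc, ← hd, ← map_mul, mul_comm c d]

end CfsgLib.ReeFourMult
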