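import Cfsg.Agent.Lib.ReeFourMult.Torus
import Cfsg.Agent.Lib.ReeFourMult.Engine

/-!
The two simple root subgroups of `²F₄(q)` as nodes for the lifted BN-pair.
-/

set_option autoImplicit false
set_option maxRecDepth 100000
set_option linter.unusedSectionVars false

namespace CfsgLib.ReeFourMult

open Cfsg.Lie
open CfsgLib.Chevalley hiding xG_mem_group rootsU_le_group
open CfsgLib.Twisted (fullF4)
open CfsgLib.TwistedAut (torT posT exists_crd_of_torT torChar torChar_eq)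
open CfsgLib.OutAut.F4Pair (full X)
open CfsgLib.ReeFourInvolutions

variable {K : Type*} [Field K] [Fintype K] [CharP K 2] {σ : K →+* K} {m : ℕ} (S : Setting σ m)
include S

theorem o1_law (a b : K) : o1 σ a * o1 σ b = o1 σ (a + b) := by
  f4_eq <;> grind

theorem o8_law (t v t' v' : K) : o8 σ t v * o8 σ t' v' = o8 σ (t + t') (v + v' + t * σ t' ^ 2) := by
  f4_eq <;> (try grind)
  all_goals (simp only [map_add, map_mul, map_pow, S.twice]; grind)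

/-- the root subgroup of the pair orbit -/
noncomputable def XA : Subgroup ↥(twistedF4 K (2 ^ m)) where
  carrier := {g | ∃ a, (g : GL chevF4.Idx K) = o1 σ a}
  one_mem' := ⟨0, (o1_zero σ).symm⟩
  mul_mem' := by
    rintro g h ⟨a, ha⟩ ⟨b, hb⟩
    exact ⟨a + b, by rw [Subgroup.coe_mul, ha, hb, o1_law S]⟩
  inv_mem' := by
    rintro g ⟨a, ha⟩
    refine ⟨a, ?_⟩
    rw [Subgroup.coe_inv, ha]
    exact inv_eq_of_mul_eq_one_right (by rw [o1_law S, CharTwo.add_self_eq_zero, o1_zero])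

/-- the root subgroup of the orbit of type B₂ -/
noncomputable def XB : Subgroup ↥(twistedF4 K (2 ^ m)) where
  carrier := {g | ∃ t v, (g : GL chevF4.Idx K) = o8 σ t v}
  one_mem' := ⟨0, 0, (o8_zero σ).symm⟩
  mul_mem' := by
    rintro g h ⟨t, v, hg⟩ ⟨t', v', hh⟩
    exact ⟨_, _, by rw [Subgroup.coe_mul, hg, hh, o8_law S]⟩
  inv_mem' := by
    rintro g ⟨t, v, hg⟩
    refine ⟨t, v + t * σ t ^ 2, ?_⟩
    rw [Subgroup.coe_inv, hg]
    refine inv_eq_of_mul_eq_one_right ?_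
    rw [o8_law S, CharTwo.add_self_eq_zero,
      show v + (v + t * σ t ^ 2) + t * σ t ^ 2 = 0 by
        rw [← add_assoc v v, CharTwo.add_self_eq_zero, zero_add, CharTwo.add_self_eq_zero], o8_zero]

theorem line_one {g : GL chevF4.Idx K} (hg : g ∈ twistedF4 K (2 ^ m)) {a b : K}
    (e : g = X 33 a * X 24 b) : g = o1 σ b := by
  have hU : g ∈ chevF4.posUnipotent K := by
    rw [e]
    refine mul_mem ?_ ?_ <;>
      exact xG_mem_rootsU (S := {r | chevF4.IsPosRoot r}) full.cert (CfsgLib.OutAut.F4Pair.isPos_iff.2 (by norm_num)) _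
  obtain ⟨a', t2, v2, c, t4, v4, e', t6, v6, y, t8, v8, h⟩ := S.exists_N hg hU
  rw [e] at h ⊢
  f4_coords_at h
  obtain ⟨e24, e25, e26, e27, e28, e29, e30, e31, e32, e33, e34, e35, e36, e37, e38, e39, e40, e41, e42, e43, e44, e45, e46, e47⟩ := h
  rw [o1, show σ b = a by grind]

theorem line_eight {g : GL chevF4.Idx K} (hg : g ∈ twistedF4 K (2 ^ m)) {a b c d : K}
    (e : g = X 27 a * X 25 b * X 28 c * X 30 d) : g = o8 σ b d := by
  have hU : g ∈ chevF4.posUnipotent K := by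
    rw [e]
    refine mul_mem (mul_mem (mul_mem ?_ ?_) ?_) ?_ <;>
      exact xG_mem_rootsU (S := {r | chevF4.IsPosRoot r}) full.cert (CfsgLib.OutAut.F4Pair.isPos_iff.2 (by norm_num)) _
  obtain ⟨a', t2, v2, c', t4, v4, e', t6, v6, y, t8, v8, h⟩ := S.exists_N hg hU
  rw [e] at h ⊢
  f4_coords_at h
  obtain ⟨e24, e25, e26, e27, e28, e29, e30, e31, e32, e33, e34, e35, e36, e37, e38, e39, e40, e41, e42, e43, e44, e45, e46, e47⟩ := h
  rw [o8, show σ b = a by grind, show a * b + σ d = c by grind]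

theorem conj_X {r : ℕ} (hr : r < chevF4.nroots) {τ : ↥(twistedF4 K (2 ^ m))} {c : Fin chevF4.rank → Kˣ}
    (hc : torusHom chevF4 K c = (τ : GL chevF4.Idx K)) (x : K) :
    (τ : GL chevF4.Idx K) * X r x * (τ : GL chevF4.Idx K)⁻¹ =
      X r (((chi chevF4 r c : Kˣ) : K) * x) := by
  have := (acts_torus fullF4.cert c).conj ⟨r, hr⟩ x
  rw [hc] at this
  simpa using this

theorem conj_o1 {τ : ↥(twistedF4 K (2 ^ m))} (hτ : τ ∈ torT (twistedF4 K (2 ^ m))) (a : K) :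
    (τ : GL chevF4.Idx K) * o1 σ a * (τ : GL chevF4.Idx K)⁻¹ = o1 σ (lchar K m 0 τ * a) := by
  obtain ⟨c, hc⟩ := exists_crd_of_torT fullF4 hτ
  have hg := S.conj_mem τ.2 (S.mem_pair a).1
  have e : (τ : GL chevF4.Idx K) * o1 σ a * (τ : GL chevF4.Idx K)⁻¹ =
      X 33 (((chi chevF4 33 c : Kˣ) : K) * σ a) * X 24 (((chi chevF4 24 c : Kˣ) : K) * a) := by
    rw [o1, conj_mul', conj_X S (by decide +kernel) hc, conj_X S (by decide +kernel) hc]
  rw [line_one S hg e, lchar, show headRt 0 = 24 from rfl, torChar_eq (by decide +kernel) hc]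

theorem conj_o8 {τ : ↥(twistedF4 K (2 ^ m))} (hτ : τ ∈ torT (twistedF4 K (2 ^ m))) (t v : K) :
    (τ : GL chevF4.Idx K) * o8 σ t v * (τ : GL chevF4.Idx K)⁻¹ =
      o8 σ (lchar K m 1 τ * t) (lchar K m 3 τ * v) := by
  obtain ⟨c, hc⟩ := exists_crd_of_torT fullF4 hτ
  have hg := S.conj_mem τ.2 (S.mem_o8 t v)
  have e : (τ : GL chevF4.Idx K) * o8 σ t v * (τ : GL chevF4.Idx K)⁻¹ =
      X 27 (((chi chevF4 27 c : Kˣ) : K) * σ t) * X 25 (((chi chevF4 25 c : Kˣ) : K) * t) *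
      X 28 (((chi chevF4 28 c : Kˣ) : K) * (σ t * t + σ v)) * X 30 (((chi chevF4 30 c : Kˣ) : K) * v) := by
    rw [o8, conj_mul', conj_mul', conj_mul', conj_X S (by decide +kernel) hc, conj_X S (by decide +kernel) hc,
      conj_X S (by decide +kernel) hc, conj_X S (by decide +kernel) hc]
  rw [line_eight S hg e, lchar, lchar, show headRt 1 = 25 from rfl, show headRt 3 = 30 from rfl,
    torChar_eq (by decide +kernel) hc, torChar_eq (by decide +kernel) hc]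

/-- the unipotent part -/
def UU (_S : Setting σ m) : Subgroup ↥(twistedF4 K (2 ^ m)) := (chevF4.posUnipotent K).subgroupOf (twistedF4 K (2 ^ m))

/-- the torus and the two involutions -/
noncomputable def NN : Subgroup ↥(twistedF4 K (2 ^ m)) :=
  torT (twistedF4 K (2 ^ m)) ⊔ Subgroup.closure {sA S, sB S}

theorem conjA_inv : (sA S)⁻¹ = sA S := inv_eq_of_mul_eq_one_right (sA_mul_self S)

theorem conjB_inv : (sB S)⁻¹ = sB S := inv_eq_of_mul_eq_one_right (sB_mul_self S)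

theorem tor_norm_U {τ : ↥(twistedF4 K (2 ^ m))} (hτ : τ ∈ torT (twistedF4 K (2 ^ m))) {u : ↥(twistedF4 K (2 ^ m))}
    (hu : u ∈ UU S) : τ * u * τ⁻¹ ∈ UU S :=
  diagonal_conj_rootsU fullF4 {r | chevF4.IsPosRoot r} _ hτ _ hu

theorem XA_le : XA S ≤ UU S := fun g ⟨a, ha⟩ => by
  show (g : GL chevF4.Idx K) ∈ chevF4.posUnipotent K
  rw [ha]; exact (o_mem_U S a 0 0).1

theorem XB_le : XB S ≤ UU S := fun g ⟨t, v, hg⟩ => by
  show (g : GL chevF4.Idx K) ∈ chevF4.posUnipotent K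
  rw [hg]; exact (o_mem_U S 0 t v).2.2.2.2.2.2.2

theorem NN_le_monomial {g : ↥(twistedF4 K (2 ^ m))} (hg : g ∈ NN S) :
    (g : GL chevF4.Idx K) ∈ chevF4.monomialSubgroup K := by
  have hle : NN S ≤ (chevF4.monomialSubgroup K).subgroupOf (twistedF4 K (2 ^ m)) := by
    refine sup_le (fun τ hτ => diagonal_le_monomial hτ) ((Subgroup.closure_le _).2 ?_)
    rintro g (rfl | rfl)
    · exact (isRep_wA S).2.1
    · exact (isRep_wB S).2.1
  exact hle hg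

theorem UU_inter : ∀ g ∈ UU S, g ∈ NN S → g = 1 := fun g hgU hgN =>
  Subtype.ext (eq_one_of_mem_pos_diagonal fullF4 hgU (by
    rw [← borel_inf_monomial fullF4]
    exact ⟨Subgroup.mem_sup_left hgU, NN_le_monomial S hgN⟩))

theorem decomp_borel {g : ↥(twistedF4 K (2 ^ m))} (hg : (g : GL chevF4.Idx K) ∈ chevF4.borelSubgroup K) :
    ∃ u ∈ UU S, ∃ τ ∈ torT (twistedF4 K (2 ^ m)), g = u * τ := by
  have hK : Fintype.card K = 2 ^ (2 * m + 1) := by rw [← Nat.card_eq_fintype_card]; exact S.card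
  obtain ⟨ρ, φ, hG, hJ⟩ := CfsgLib.Twisted.fixedDataF4 hK
  obtain ⟨u, t, hu, huU, ht, htD, e⟩ := hG.borel_decomp g.2 hg
  exact ⟨⟨u, hu⟩, huU, ⟨t, ht⟩, htD, Subtype.ext e⟩

theorem UU_gen : UU S ⊔ NN S = ⊤ := by
  have hK : Fintype.card K = 2 ^ (2 * m + 1) := by rw [← Nat.card_eq_fintype_card]; exact S.card
  obtain ⟨ρ, φ, hG, hJ⟩ := CfsgLib.Twisted.fixedDataF4 hK
  rw [eq_top_iff]
  rintro ⟨g, hg⟩ -
  obtain ⟨u, n, u', hu, huU, hn, hnN, hu', hu'U, e, -⟩ := hG.exists_form hg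
  have hmem : n ∈ (NN S).map (twistedF4 K (2 ^ m)).subtype := by
    refine hG.monomial_induction hJ (K := (NN S).map (twistedF4 K (2 ^ m)).subtype) (fun t ht htD => ?_) ?_ hn hnN
    · exact Subgroup.mem_map.2 ⟨⟨t, ht⟩, Subgroup.mem_sup_left (show (⟨t, ht⟩ : ↥(twistedF4 K (2 ^ m))) ∈ torT (twistedF4 K (2 ^ m)) from htD), rfl⟩
    rintro J ⟨L, hL, rfl⟩
    simp only [List.mem_cons, List.not_mem_nil, or_false] at hL
    rcases hL with rfl | rfl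
    · exact ⟨wA, isRep_wA S, sA S, Subgroup.mem_sup_right (Subgroup.subset_closure (Or.inl rfl)), rfl⟩
    · exact ⟨wB, isRep_wB S, sB S, Subgroup.mem_sup_right (Subgroup.subset_closure (Or.inr rfl)), rfl⟩
  obtain ⟨n', hn', rfl⟩ := hmem
  rw [show (⟨g, hg⟩ : ↥(twistedF4 K (2 ^ m))) = ⟨u, hu⟩ * n' * ⟨u', hu'⟩ from Subtype.ext e]
  exact mul_mem (mul_mem (Subgroup.mem_sup_left huU) (Subgroup.mem_sup_right hn')) (Subgroup.mem_sup_left hu'U)

/-- a cell from the rank-one step -/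
theorem cell_of_rep {J : Set (Fin chevF4.rank)}
    (hJm : J ∈ CfsgLib.Twisted.nodeSets chevF4 [[0, 3], [1, 2]]) {s : ↥(twistedF4 K (2 ^ m))}
    (hs : CfsgLib.Twisted.FixedPts.IsRep fullF4 (twistedF4 K (2 ^ m)) J (s : GL chevF4.Idx K))
    {X : Subgroup ↥(twistedF4 K (2 ^ m))} (hXU : X ≤ UU S) (hs2 : s * s = 1)
    (hXT : ∀ τ ∈ torT (twistedF4 K (2 ^ m)), ∀ x ∈ X, τ * x * τ⁻¹ ∈ X)
    (hsplit : ∀ u ∈ UU S, ∃ a ∈ X, ∃ u' ∈ UU S, s * u' * s ∈ UU S ∧ u = u' * a)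
    (hsep : ∀ x ∈ X, ∀ u ∈ UU S, ∀ τ ∈ torT (twistedF4 K (2 ^ m)), s * x * s = u * τ → x = 1)
    {x : ↥(twistedF4 K (2 ^ m))} (hx : x ∈ X) (hx1 : x ≠ 1) :
    ∃ u ∈ UU S, ∃ τ ∈ torT (twistedF4 K (2 ^ m)), ∃ b ∈ X, s * x * s = u * τ * s * b := by
  have hK : Fintype.card K = 2 ^ (2 * m + 1) := by rw [← Nat.card_eq_fintype_card]; exact S.card
  obtain ⟨ρ, φ, hG, hJ⟩ := CfsgLib.Twisted.fixedDataF4 hK
  obtain ⟨b₁, hb₁, b₂, hb₂, e⟩ := hG.rank_one hJ hJm hs s.2 hs.2.1 x.2 (hXU hx)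
  obtain ⟨u, hu, τ, hτ, e₁⟩ := decomp_borel S (g := ⟨b₁, hb₁.2⟩) hb₁.1
  obtain ⟨u₂, hu₂, τ₂, hτ₂, e₂⟩ := decomp_borel S (g := ⟨b₂, hb₂.2⟩) hb₂.1
  rcases e with e | e
  · exfalso
    refine hx1 (hsep x hx (u * (τ * u₂ * τ⁻¹)) (mul_mem hu (tor_norm_U S hτ hu₂)) (τ * τ₂) (mul_mem hτ hτ₂) ?_)
    have e' : s * x * s = (⟨b₁, hb₁.2⟩ : ↥(twistedF4 K (2 ^ m))) * (s * s) * ⟨b₂, hb₂.2⟩ := Subtype.ext e
    rw [e', hs2, e₁, e₂]; group
  obtain ⟨a, ha, v, hv, hsv, rfl⟩ := hsplit u₂ hu₂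
  have hsi : s⁻¹ = s := inv_eq_of_mul_eq_one_right hs2
  have hτ' : s * τ₂ * s ∈ torT (twistedF4 K (2 ^ m)) := by
    have := tor_conj S hs.2.1 hτ₂
    rwa [hsi] at this
  refine ⟨u * (τ * (s * v * s) * τ⁻¹), mul_mem hu (tor_norm_U S hτ hsv), τ * (s * τ₂ * s), mul_mem hτ hτ',
    τ₂⁻¹ * a * τ₂, by simpa using hXT _ (inv_mem hτ₂) a ha, ?_⟩
  have e' : s * x * s = (⟨b₁, hb₁.2⟩ : ↥(twistedF4 K (2 ^ m))) * s * ⟨b₂, hb₂.2⟩ := Subtype.ext e
  rw [e', e₁, e₂]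
  calc u * τ * s * (v * a * τ₂) = u * τ * s * v * (s * s) * τ₂ * (s * s) * τ₂⁻¹ * a * τ₂ := by rw [hs2]; group
    _ = _ := by group

end CfsgLib.ReeFourMult
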