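import Cfsg.Agent.Lib.ReeFourMult.Layers

/-!
Central extensions of `²F₄(q)`, `q ≥ 8`, split over the unipotent part: a torus-invariant section is pushed down
through the twelve layers.
-/

set_option autoImplicit false
set_option maxRecDepth 100000
set_option linter.unusedSectionVars false

namespace CfsgLib.ReeFourMult

open Cfsg.Lie
open CfsgLib.Chevalley hiding xG_mem_group rootsU_le_group
open CfsgLib.OutAut.F4Pair (full X)
open CfsgLib.ReeFourInvolutions
open CfsgLib.TwistedAut (torT)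
open CfsgLib.SchurMult (comm_eq_of_map_eq comm_conj)
open scoped commutatorElement

section abstract

universe u v w

variable {Γ : Type u} {G : Type v} {K : Type w} [Group Γ] [Group G] [Field K] {σ : Γ →* G}
  {U : ℕ → Subgroup G} {hd : ℕ → G → K} {T : Subgroup G} {χ : ℕ → G → K} {n : ℕ}

/-- The next step down: the two layers are moved into the next term by a common conjugation. -/
theorem stable_of_moved (H : Chain U hd T χ n) (hc : σ.ker ≤ Subgroup.center Γ) (hσ : Function.Surjective σ)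
    {k : ℕ} (hk : k < n) {C : Subgroup Γ} (hC : IsSec σ T (U (k + 1)) C) {j : ℕ} (hj : k < j) (hjn : j < n)
    (hprev : Stable σ U C k (j + 1)) (g : G) (P Q : K → G)
    (hP : ∀ a, P a ∈ U k ∧ hd k (P a) = a) (hQ : ∀ b, Q b ∈ U j ∧ hd j (Q b) = b)
    (hPQ : ∀ a b, Commute (P a) (Q b) ∧ g * P a * g⁻¹ ∈ U (k + 1) ∧ g * Q b * g⁻¹ ∈ U (k + 1)) :
    Stable σ U C k j := by
  refine stable_of_reps H hc hk hC hj hjn hprev (Set.range P) (Set.range Q)
    (fun a => ⟨_, ⟨a, rfl⟩, (hP a).1, (hP a).2⟩) (fun b => ⟨_, ⟨b, rfl⟩, (hQ b).1, (hQ b).2⟩) ?_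
  rintro x ⟨a, ha⟩ c hcC ⟨b, hb⟩
  obtain ⟨h1, h2, h3⟩ := hPQ a b
  rw [ha] at h1 h2
  rw [hb] at h1 h3
  obtain ⟨y, rfl⟩ := hσ g
  obtain ⟨d, hd0, ed⟩ := hC.onto _ h2
  obtain ⟨e, he0, ee⟩ := hC.onto _ h3
  have h4 : ⁅x, c⁆ = ⁅d, e⁆ := by
    rw [← comm_conj hc h1 y]
    refine comm_eq_of_map_eq hc ?_ ?_
    · rw [map_mul, map_mul, map_inv, ed]
    · rw [map_mul, map_mul, map_inv, ee]
  have h5 : ⁅d, e⁆ = 1 := by
    refine hC.triv _ ?_ ?_
    · rw [commutatorElement_def]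
      exact mul_mem (mul_mem (mul_mem hd0 he0) (inv_mem hd0)) (inv_mem he0)
    · rw [← h4, map_commutatorElement, commutatorElement_eq_one_iff_commute]
      exact h1
  rw [h5, commutatorElement_eq_one_iff_mul_comm] at h4
  rw [h4, mul_inv_cancel_right]
  exact hcC

end abstract

variable {K : Type*} [Field K] [Fintype K] [CharP K 2] {σ : K →+* K} {m : ℕ} (S : Setting σ m)

section rules

theorem o8_comm (t v : K) : o8 σ t 0 * o8 σ 0 v = o8 σ 0 v * o8 σ t 0 := by
  f4_eq <;> grind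

theorem o2_comm (t v : K) : o2 σ t 0 * o2 σ 0 v = o2 σ 0 v * o2 σ t 0 := by
  f4_eq <;> grind

theorem o6_comm (t v : K) : o6 σ t 0 * o6 σ 0 v = o6 σ 0 v * o6 σ t 0 := by
  f4_eq <;> grind

theorem o7_o2 (v : K) : o7 σ 1 * o2 σ 0 v = o4 σ 0 v * o2 σ 0 v * o7 σ 1 := by
  f4_eq <;> grind

end rules

include S

/-- A representative inside the group. -/
noncomputable def repG (k : ℕ) (a : K) : ↥(twistedF4 K (2 ^ m)) := ⟨rep σ k a, rep_mem S k a⟩

theorem repG_head {k : ℕ} (hk : k < 12) (a : K) :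
    repG S k a ∈ lay K m k ∧ head K m k (repG S k a) = a :=
  rep_head S hk a

theorem conj_rep (k k' : ℕ) (w : ↥(twistedF4 K (2 ^ m))) {a : K}
    (e : (w : GL chevF4.Idx K) * rep σ k a * (w : GL chevF4.Idx K)⁻¹ = rep σ k' a) :
    w * repG S k a * w⁻¹ = repG S k' a :=
  Subtype.ext e

theorem commute_rep (k k' : ℕ) {a b : K} (e : rep σ k a * rep σ k' b = rep σ k' b * rep σ k a) :
    Commute (repG S k a) (repG S k' b) :=
  Subtype.ext e

variable (hm : 1 ≤ m) {Γ : Type*} [Group Γ] {π : Γ →* ↥(twistedF4 K (2 ^ m))}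
  (hc : π.ker ≤ Subgroup.center Γ) (hπ : Function.Surjective π)
include hm hc hπ

theorem stable_all {k : ℕ} (hk : k < 12) {C : Subgroup Γ}
    (hC : IsSec π (torT (twistedF4 K (2 ^ m))) (lay K m (k + 1)) C) :
    ∀ j, k < j → j ≤ 12 → Stable π (lay K m) C k j := by
  have H := chain S
  suffices h : ∀ d j, j + d = 12 → k < j → Stable π (lay K m) C k j from
    fun j hj hj12 => h (12 - j) j (by omega) hj
  intro d
  induction d with
  | zero =>
    intro j hj _
    obtain rfl : j = 12 := by omega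
    exact stable_bot H hC k
  | succ d ih =>
    intro j hj hkj
    have hjn : j < 12 := by omega
    have hprev := ih (j + 1) (by omega) (by omega)
    by_cases hex : (k, j) ∈ [(1, 3), (2, 7), (4, 10), (5, 11)]
    · simp only [List.mem_cons, List.not_mem_nil, or_false, Prod.mk.injEq] at hex
      have hin : ∀ {i : ℕ}, k + 1 ≤ i → i < 12 → ∀ a, repG S i a ∈ lay K m (k + 1) := fun {i} hi hi12 a =>
        H.le_of_le hi (by omega) (repG_head S hi12 a).1
      rcases hex with ⟨rfl, rfl⟩ | ⟨rfl, rfl⟩ | ⟨rfl, rfl⟩ | ⟨rfl, rfl⟩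
      · refine stable_of_moved H hc hπ hk hC hkj hjn hprev ⟨wA, S.wA_mem⟩ (repG S 1) (repG S 3)
          (repG_head S hk) (repG_head S hjn) fun a b => ⟨commute_rep S 1 3 (o8_comm a b), ?_, ?_⟩
        · rw [conj_rep S 1 2 ⟨wA, S.wA_mem⟩ (wA_o8 σ a 0)]; exact hin le_rfl (by omega) a
        · rw [conj_rep S 3 7 ⟨wA, S.wA_mem⟩ (wA_o8 σ 0 b)]; exact hin (by omega) (by omega) b
      · refine stable_of_moved H hc hπ hk hC hkj hjn hprev ⟨wB, S.wB_mem⟩ (repG S 2) (repG S 7)
          (repG_head S hk) (repG_head S hjn) fun a b => ⟨commute_rep S 2 7 (o2_comm a b), ?_, ?_⟩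
        · rw [conj_rep S 2 4 ⟨wB, S.wB_mem⟩ (wB_o2 σ a 0)]; exact hin (by omega) (by omega) a
        · rw [conj_rep S 7 10 ⟨wB, S.wB_mem⟩ (wB_o2 σ 0 b)]; exact hin (by omega) (by omega) b
      · refine stable_of_moved H hc hπ hk hC hkj hjn hprev ⟨wA, S.wA_mem⟩ (repG S 4) (repG S 10)
          (repG_head S hk) (repG_head S hjn) fun a b => ⟨commute_rep S 4 10 (o6_comm a b), ?_, ?_⟩
        · rw [conj_rep S 4 5 ⟨wA, S.wA_mem⟩ (wA_o6 σ a 0)]; exact hin le_rfl (by omega) a
        · rw [conj_rep S 10 11 ⟨wA, S.wA_mem⟩ (wA_o6 σ 0 b)]; exact hin (by omega) (by omega) b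
      · refine stable_of_commutators H hc hk hC hkj hjn hprev fun b =>
          ⟨repG S 6 1, hin le_rfl (by omega) 1, repG S 7 b, hin (by omega) (by omega) b, ?_⟩
        have e : repG S 6 1 * repG S 7 b * (repG S 6 1)⁻¹ * (repG S 7 b)⁻¹ = repG S 11 b :=
          Subtype.ext (by
            show o7 σ 1 * o2 σ 0 b * (o7 σ 1)⁻¹ * (o2 σ 0 b)⁻¹ = o4 σ 0 b
            rw [o7_o2]; group)
        rw [e]
        exact repG_head S hjn b
    · obtain ⟨t, ht, h1, h2⟩ := exists_sep S hm hkj hjn hex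
      exact stable_of_sep H hc hk hC hkj hjn hprev ⟨t, ht, Or.inl ⟨h1, h2⟩⟩ hπ

theorem exists_sec : ∃ C, IsSec π (torT (twistedF4 K (2 ^ m))) (lay K m 0) C := by
  have H := chain S
  have h8 : 2 ^ 3 ≤ 2 ^ (2 * m + 1) := Nat.pow_le_pow_right (by norm_num) (by omega)
  have hK : Fintype.card K = 2 ^ (2 * m + 1) := by rw [← Nat.card_eq_fintype_card]; exact S.card
  have h9 : Fintype.card K ≠ 9 := by
    rw [hK]; intro e
    have := congrArg (· % 2) e
    simp [Nat.pow_mod] at this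
  suffices h : ∀ d k, k + d = 12 → ∃ C, IsSec π (torT (twistedF4 K (2 ^ m))) (lay K m k) C from h 12 0 rfl
  intro d
  induction d with
  | zero =>
    intro k hk
    obtain rfl : k = 12 := by omega
    exact ⟨_, isSec_bot H⟩
  | succ d ih =>
    intro k hk
    obtain ⟨C, hC⟩ := ih (k + 1) (by omega)
    exact exists_sec_step H (by omega) h9 (by omega) hc hπ (by omega) hC
      (stable_all S hm hc hπ (by omega) hC (k + 1) (by omega) (by omega))

/-- No kernel element is a commutator of preimages of the unipotent part. -/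
theorem eq_one_of_mem_commutator {z : Γ} (hz : z ∈ ⁅(lay K m 0).comap π, (lay K m 0).comap π⁆)
    (hzk : z ∈ π.ker) : z = 1 := by
  obtain ⟨C, hC⟩ := exists_sec S hm hc hπ
  exact comm_ker_of_isSec hc hC hz hzk

end CfsgLib.ReeFourMult
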