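import Cfsg.Agent.Lib.ReeFourMult.RankOneB
import Cfsg.Agent.Lib.ReeFourMult.TwoPart
import Cfsg.Agent.Lib.SchurMult.Criterion
import Cfsg.Agent.Lib.SchurMult.Reduce
import Cfsg.Agent.Lib.TwistedOrder.Instances

/-!
The Schur multiplier of `²F₄(q)` is trivial for `q ≥ 8`.
-/

set_option autoImplicit false
set_option maxRecDepth 100000
set_option linter.unusedSectionVars false
set_option linter.style.haveILetI false

namespace CfsgLib.ReeFourMult

open Cfsg.Lie
open CfsgLib.TwistedAut (torT)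
open CfsgLib.ReeFourInvolutions

variable {K : Type*} [Field K] [Fintype K] [CharP K 2] {σ : K →+* K} {m : ℕ} (S : Setting σ m)
include S

theorem not_two_dvd_index : ¬ 2 ∣ (lay K m 0).index := by
  have hK : Fintype.card K = 2 ^ (2 * m + 1) := by rw [← Nat.card_eq_fintype_card]; exact S.card
  have hU : Nat.card (lay K m 0) = (2 ^ (2 * m + 1)) ^ 12 := by
    rw [lay_zero, ← CfsgLib.Twisted.card_unipotentF4 hK, inf_comm, ← Subgroup.inf_subgroupOf_right]
    exact Nat.card_congr (Subgroup.subgroupOfEquivOfLe inf_le_right).toEquiv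
  have hG := CfsgLib.TwistedOrder.card_twistedF4 hK (CfsgLib.Twisted.card_torusF4 hK)
  rw [← Subgroup.card_mul_index (lay K m 0), hU, mul_assoc, mul_assoc, mul_assoc] at hG
  rw [Nat.eq_of_mul_eq_mul_left (pow_pos (by positivity) _) hG]
  have he : ∀ k, k ≠ 0 → 2 ∣ (2 ^ (2 * m + 1)) ^ k := fun k hk => dvd_pow (dvd_pow_self 2 (by omega)) hk
  have h0 : 1 ≤ 2 ^ (2 * m + 1) := Nat.one_le_two_pow
  have h1 := Nat.one_le_pow 4 (2 ^ (2 * m + 1)) (by positivity)
  have := he 1 one_ne_zero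
  have := he 3 three_ne_zero
  have := he 4 four_ne_zero
  have := he 6 (by norm_num)
  simp only [Nat.prime_two.dvd_mul, not_or, pow_one] at *
  refine ⟨?_, ?_, ?_, ?_⟩ <;> omega

theorem ker_eq_bot (hm : 1 ≤ m) {Γ : Type*} [Group Γ] [Finite Γ] {π : Γ →* ↥(twistedF4 K (2 ^ m))}
    (hπ : Cfsg.IsStemExtension π) : π.ker = ⊥ := by
  have hodd : Odd (Nat.card π.ker) := by
    rw [← Nat.not_even_iff_odd, even_iff_two_dvd]
    exact CfsgLib.SchurMult.not_dvd_card_ker_of_local hπ Nat.prime_two (lay K m 0) (not_two_dvd_index S)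
      fun z hz hzk => eq_one_of_mem_commutator S hm hπ.2.1 hπ.1 hz hzk
  haveI := Fact.mk Nat.prime_two
  obtain ⟨l, P⟩ := CfsgLib.TwMult.exists_pLift (p := 2) hπ.1 hπ.2.1 hodd.not_two_dvd_nat
  refine Engine.ker_eq_bot P hπ hodd (engineData S) (nodeA S) (nodeB S) (fun C h1 h2 h3 h4 => ?_)
    (fun C h1 h2 h3 h4 => ?_)
  · exact Engine.ident_of_involutions P hπ.2.1 hodd (engineData S) h1 h2 h3 h4
      (Subgroup.subset_closure (Or.inl rfl)) (nodeA S)
      (fun x hx => XA_sq S hx)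
  · refine Engine.ident_of_quotient P hπ.2.1 hodd (engineData S) h1 h2 h3 h4
      (Subgroup.subset_closure (Or.inr rfl)) (nodeB S)
      (permB S).rangeRestrict (XB_le_LB S) (sB_mem_LB S) (fun g hg => ?_) (fun g hg => ?_)
      (isCyclic_of_odd S hm) (fun x hx hx1 => ?_)
    · obtain ⟨z, hz⟩ := permB_ker S (congrArg Subtype.val hg)
      exact hz.1
    · obtain ⟨z, hz⟩ := permB_ker S (congrArg Subtype.val hg)
      exact ⟨(centralises S hz (sB_mem_LB S)).symm, fun y hy => (centralises S hz (XB_le_LB S hy)).symm⟩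
    · obtain ⟨u, hu, τ, hτ, b, hb, e⟩ := cellB S hm hx hx1
      obtain ⟨z, w, hp⟩ := exists_par_of_mem S hτ
      have h5 := (hp.sB S).mul S hp
      rw [conjB_inv S, mul_comm w z] at h5
      exact ⟨u, hu, τ, hτ, b, hb,
        mul_mem (mul_mem (mul_mem (sB_mem_LB S) (torT_le_LB S hτ)) (sB_mem_LB S)) (torT_le_LB S hτ), e,
        Subtype.ext (permB_eq_one_of_par S h5)⟩

end CfsgLib.ReeFourMult
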