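import Cfsg.Agent.Lib.ReeFourMult.Lines
import Cfsg.Agent.Lib.InvCentralizers.ChevalleySteinberg

/-!
`²F₄(q)` has the data of the lifting engine: the signs are read off from the four positive lines of each orbit.
-/

set_option autoImplicit false
set_option maxRecDepth 100000
set_option linter.unusedSectionVars false

namespace CfsgLib.ReeFourMult

open Cfsg.Lie
open CfsgLib.Chevalley hiding xG_mem_group rootsU_le_group
open CfsgLib.Twisted (fullF4)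
open CfsgLib.TwistedAut (torT)
open CfsgLib.OutAut.F4Pair (full X)
open CfsgLib.ReeFourInvolutions

section chain

universe u
variable {G : Type u} [Group G]

/-- Four lines in a chain under two involutions give the signs of the first one. -/
theorem sign_of_chain {U T : Subgroup G} {a b : G} (ha : a * a = 1) (hb : b * b = 1) (hr : (a * b) ^ 8 = 1)
    (hTa : ∀ τ ∈ T, a * τ * a ∈ T) (hTb : ∀ τ ∈ T, b * τ * b ∈ T)
    (P : Fin 4 → Set G) (hPU : ∀ i, ∀ x ∈ P i, x ∈ U)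
    (hPT : ∀ τ ∈ T, ∀ x ∈ P 0, τ * x * τ⁻¹ ∈ P 0)
    (b01 : ∀ x ∈ P 0, b * x * b ∈ P 1) (b10 : ∀ x ∈ P 1, b * x * b ∈ P 0)
    (a12 : ∀ x ∈ P 1, a * x * a ∈ P 2) (a21 : ∀ x ∈ P 2, a * x * a ∈ P 1)
    (b23 : ∀ x ∈ P 2, b * x * b ∈ P 3) (b32 : ∀ x ∈ P 3, b * x * b ∈ P 2)
    (a33 : ∀ x ∈ P 3, a * x * a ∈ P 3)
    {w : G} (hw : w ∈ T ⊔ Subgroup.closure {a, b}) :
    (∀ x ∈ P 0, w⁻¹ * x * w ∈ U) ∨ ∀ x ∈ P 0, w⁻¹ * (a * x * a) * w ∈ U := by
  have hai : a⁻¹ = a := inv_eq_of_mul_eq_one_right ha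
  have hbi : b⁻¹ = b := inv_eq_of_mul_eq_one_right hb
  set w₀ := (a * b) ^ 4 with hw₀
  have hw₀i : w₀⁻¹ = w₀ := inv_eq_of_mul_eq_one_right (by rw [hw₀, ← pow_add]; exact hr)
  have hca : a * (a * b) * a⁻¹ = (a * b)⁻¹ := by rw [mul_inv_rev, hai, hbi, ← mul_assoc, ha, one_mul]
  have hwa : a * w₀ = w₀ * a := by
    have : a * w₀ * a⁻¹ = w₀ := by rw [hw₀, ← conj_pow, hca, inv_pow, ← hw₀, hw₀i]
    calc a * w₀ = a * w₀ * a⁻¹ * a := by group
      _ = _ := by rw [this]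
  have hwb : b * w₀ = w₀ * b := by
    have hR : Commute (a * b) w₀ := (Commute.refl (a * b)).pow_right 4
    have := (Commute.inv_left (show Commute a w₀ from hwa)).mul_left hR
    rwa [inv_mul_cancel_left] at this
  -- the first line changes sign at the first involution
  have hflip : ∀ x ∈ P 0, w₀ * (a * x * a) * w₀ ∈ P 0 := by
    intro x hx
    have h := b10 _ (a21 _ (b32 _ (a33 _ (b23 _ (a12 _ (b01 _ hx))))))
    have e : w₀⁻¹ * (a * x * a) * w₀ =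
        b * (a * (b * (a * (b * (a * (b * x * b) * a) * b) * a) * b) * a) * b := by
      have hwform : w₀ = a * (b * (a * (b * (a * (b * (a * b)))))) := by
        simp only [hw₀, pow_succ, pow_zero, one_mul, mul_assoc]
      rw [hwform]
      simp only [mul_inv_rev, hai, hbi, mul_assoc]
      rw [← mul_assoc a a, ha, one_mul, ← mul_assoc a a, ha, one_mul]
    rw [hw₀i] at e
    rwa [e]
  -- signed lines are permuted
  let Q : G → Prop := fun g => ∀ i, (∃ j, ∀ x ∈ P i, g * x * g⁻¹ ∈ P j) ∨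
    ∃ j, ∀ x ∈ P i, w₀ * (g * x * g⁻¹) * w₀ ∈ P j
  have hone : Q 1 := fun i => Or.inl ⟨i, fun x hx => by simpa using hx⟩
  have hQa : Q a := by
    intro i
    fin_cases i
    · exact Or.inr ⟨0, fun x hx => by rw [hai]; exact hflip x hx⟩
    · exact Or.inl ⟨2, fun x hx => by rw [hai]; exact a12 x hx⟩
    · exact Or.inl ⟨1, fun x hx => by rw [hai]; exact a21 x hx⟩
    · exact Or.inl ⟨3, fun x hx => by rw [hai]; exact a33 x hx⟩
  have hQb : Q b := by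
    intro i
    fin_cases i
    · exact Or.inl ⟨1, fun x hx => by rw [hbi]; exact b01 x hx⟩
    · exact Or.inl ⟨0, fun x hx => by rw [hbi]; exact b10 x hx⟩
    · exact Or.inl ⟨3, fun x hx => by rw [hbi]; exact b23 x hx⟩
    · exact Or.inl ⟨2, fun x hx => by rw [hbi]; exact b32 x hx⟩
  have hww : ∀ y, w₀ * (w₀ * y * w₀) * w₀ = y := fun y => by
    calc w₀ * (w₀ * y * w₀) * w₀ = (w₀ * w₀) * y * (w₀ * w₀) := by group
      _ = y := by rw [hw₀, ← pow_add, hr, one_mul, mul_one]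
  have hD : ∀ d ∈ Subgroup.closure ({a, b} : Set G), Q d ∧ Q d⁻¹ ∧ d * w₀ = w₀ * d := by
    intro d hd
    have hmul : ∀ g h : G, Q g → Q h → g * w₀ = w₀ * g → Q (g * h) := by
      intro g h hg hh hgw i
      have hgw' : w₀ * g⁻¹ = g⁻¹ * w₀ := by
        calc w₀ * g⁻¹ = g⁻¹ * (g * w₀) * g⁻¹ := by group
          _ = _ := by rw [hgw]; group
      rcases hh i with ⟨j, hj⟩ | ⟨j, hj⟩ <;> rcases hg j with ⟨l, hl⟩ | ⟨l, hl⟩
      · exact Or.inl ⟨l, fun x hx => by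
          have := hl _ (hj x hx)
          rwa [show g * (h * x * h⁻¹) * g⁻¹ = g * h * x * (g * h)⁻¹ by group] at this⟩
      · exact Or.inr ⟨l, fun x hx => by
          have := hl _ (hj x hx)
          rwa [show g * (h * x * h⁻¹) * g⁻¹ = g * h * x * (g * h)⁻¹ by group] at this⟩
      · refine Or.inr ⟨l, fun x hx => ?_⟩
        have := hl _ (hj x hx)
        have e : w₀ * (g * h * x * (g * h)⁻¹) * w₀ = g * (w₀ * (h * x * h⁻¹) * w₀) * g⁻¹ := by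
          calc w₀ * (g * h * x * (g * h)⁻¹) * w₀ = (w₀ * g) * (h * x * h⁻¹) * (g⁻¹ * w₀) := by group
            _ = _ := by rw [← hgw, ← hgw']; group
        rw [e]
        exact this
      · refine Or.inl ⟨l, fun x hx => ?_⟩
        have := hl _ (hj x hx)
        rw [show g * (w₀ * (h * x * h⁻¹) * w₀) * g⁻¹ = (g * w₀) * (h * x * h⁻¹) * (w₀ * g⁻¹) by group, hgw, hgw',
          show (w₀ * g) * (h * x * h⁻¹) * (g⁻¹ * w₀) = w₀ * (g * h * x * (g * h)⁻¹) * w₀ by group, hww] at this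
        exact this
    induction hd using Subgroup.closure_induction with
    | mem y hy =>
      rcases hy with rfl | rfl
      · exact ⟨hQa, by rw [hai]; exact hQa, hwa⟩
      · exact ⟨hQb, by rw [hbi]; exact hQb, hwb⟩
    | one => exact ⟨hone, by rw [inv_one]; exact hone, by rw [one_mul, mul_one]⟩
    | mul y z _ _ hy hz =>
      refine ⟨hmul y z hy.1 hz.1 hy.2.2, ?_, ?_⟩
      · rw [mul_inv_rev]
        exact hmul _ _ hz.2.1 hy.2.1 ((Commute.inv_left (show Commute z w₀ from hz.2.2)).eq)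
      · exact ((show Commute y w₀ from hy.2.2).mul_left hz.2.2).eq
    | inv y _ hy => exact ⟨hy.2.1, by rw [inv_inv]; exact hy.1, (Commute.inv_left (show Commute y w₀ from hy.2.2)).eq⟩
  -- write `w` as torus times dihedral
  have hn : ∀ d ∈ Subgroup.closure ({a, b} : Set G), ∀ τ ∈ T, d * τ * d⁻¹ ∈ T ∧ d⁻¹ * τ * d ∈ T := by
    intro d hd
    induction hd using Subgroup.closure_induction with
    | mem y hy =>
      intro τ hτ
      rcases hy with rfl | rfl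
      · rw [hai]; exact ⟨hTa τ hτ, hTa τ hτ⟩
      · rw [hbi]; exact ⟨hTb τ hτ, hTb τ hτ⟩
    | one => intro τ hτ; simpa using hτ
    | mul y z _ _ hy hz =>
      intro τ hτ
      constructor
      · have := (hy _ (hz τ hτ).1).1
        rwa [show y * (z * τ * z⁻¹) * y⁻¹ = y * z * τ * (y * z)⁻¹ by group] at this
      · have := (hz _ (hy τ hτ).2).2
        rwa [show z⁻¹ * (y⁻¹ * τ * y) * z = (y * z)⁻¹ * τ * (y * z) by group] at this
    | inv y _ hy => intro τ hτ; rw [inv_inv]; exact ⟨(hy τ hτ).2, (hy τ hτ).1⟩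
  let N : Subgroup G :=
    { carrier := {g | ∃ τ ∈ T, ∃ d ∈ Subgroup.closure ({a, b} : Set G), g = τ * d}
      one_mem' := ⟨1, one_mem _, 1, one_mem _, (one_mul 1).symm⟩
      mul_mem' := by
        rintro _ _ ⟨τ, hτ, d, hd, rfl⟩ ⟨τ', hτ', d', hd', rfl⟩
        exact ⟨τ * (d * τ' * d⁻¹), mul_mem hτ (hn d hd τ' hτ').1, d * d', mul_mem hd hd', by group⟩
      inv_mem' := by
        rintro _ ⟨τ, hτ, d, hd, rfl⟩
        exact ⟨d⁻¹ * τ⁻¹ * d, (hn d hd _ (inv_mem hτ)).2, d⁻¹, inv_mem hd, by group⟩ }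
  have hle : T ⊔ Subgroup.closure ({a, b} : Set G) ≤ N :=
    sup_le (fun τ hτ => ⟨τ, hτ, 1, one_mem _, (mul_one τ).symm⟩)
      (fun d hd => ⟨1, one_mem _, d, hd, (one_mul d).symm⟩)
  obtain ⟨τ, hτ, d, hd, rfl⟩ := hle hw
  obtain ⟨-, hQ, hdw⟩ := hD d hd
  have hτx : ∀ τ ∈ T, ∀ x ∈ P 0, τ⁻¹ * x * τ ∈ P 0 := fun τ hτ x hx => by
    simpa using hPT _ (inv_mem hτ) x hx
  rcases hQ 0 with ⟨j, hj⟩ | ⟨j, hj⟩
  · refine Or.inl fun x hx => hPU j _ ?_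
    have := hj _ (hτx τ hτ x hx)
    rwa [inv_inv, show d⁻¹ * (τ⁻¹ * x * τ) * d = (τ * d)⁻¹ * x * (τ * d) by group] at this
  · refine Or.inr fun x hx => hPU j _ ?_
    have h1 := hj _ (hflip _ (hτx _ (hTa τ hτ) x hx))
    rw [inv_inv] at h1
    have hd' : d⁻¹ * w₀ = w₀ * d⁻¹ := (Commute.inv_left (show Commute d w₀ from hdw)).eq
    rw [show d⁻¹ * (w₀ * (a * ((a * τ * a)⁻¹ * x * (a * τ * a)) * a) * w₀) * d =
        (d⁻¹ * w₀) * (a * ((a * τ * a)⁻¹ * x * (a * τ * a)) * a) * (w₀ * d) by group, hd', ← hdw,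
      show w₀ * d⁻¹ * (a * ((a * τ * a)⁻¹ * x * (a * τ * a)) * a) * (d * w₀) =
        w₀ * (d⁻¹ * (a * ((a * τ * a)⁻¹ * x * (a * τ * a)) * a) * d) * w₀ by group, hww] at h1
    have e : a * ((a * τ * a)⁻¹ * x * (a * τ * a)) * a = τ⁻¹ * (a * x * a) * τ := by
      calc a * ((a * τ * a)⁻¹ * x * (a * τ * a)) * a
          = (a * a⁻¹) * τ⁻¹ * (a⁻¹ * x * a) * τ * (a * a) := by group
        _ = _ := by rw [mul_inv_cancel, one_mul, ha, mul_one, hai]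
    rwa [e, show d⁻¹ * (τ⁻¹ * (a * x * a) * τ) * d = (τ * d)⁻¹ * (a * x * a) * (τ * d) by group] at h1

end chain

theorem nodes_neg : ∀ r : Fin chevF4.nroots,
    (((r : ℕ) = 24 ∨ (r : ℕ) = 33) → chevF4.IsNegRoot (wPerm fullF4.cert wlA r)) ∧
    (((r : ℕ) = 25 ∨ (r : ℕ) = 27 ∨ (r : ℕ) = 28 ∨ (r : ℕ) = 30) → chevF4.IsNegRoot (wPerm fullF4.cert wlB r)) := by
  decide +kernel

variable {K : Type*} [Field K] [Fintype K] [CharP K 2] {σ : K →+* K} {m : ℕ} (S : Setting σ m)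
include S

theorem conjA_coe (g : ↥(twistedF4 K (2 ^ m))) : ((sA S * g * sA S : ↥(twistedF4 K (2 ^ m))) : GL chevF4.Idx K) =
    wA * (g : GL chevF4.Idx K) * wA⁻¹ := by
  nth_rw 2 [← conjA_inv S]
  rfl

theorem conjB_coe (g : ↥(twistedF4 K (2 ^ m))) : ((sB S * g * sB S : ↥(twistedF4 K (2 ^ m))) : GL chevF4.Idx K) =
    wB * (g : GL chevF4.Idx K) * wB⁻¹ := by
  nth_rw 2 [← conjB_inv S]
  rfl

theorem normA {τ : ↥(twistedF4 K (2 ^ m))} (hτ : τ ∈ torT (twistedF4 K (2 ^ m))) :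
    sA S * τ * sA S ∈ torT (twistedF4 K (2 ^ m)) := by
  have := sA_conj_mem S hτ
  rwa [conjA_inv S] at this

theorem normB {τ : ↥(twistedF4 K (2 ^ m))} (hτ : τ ∈ torT (twistedF4 K (2 ^ m))) :
    sB S * τ * sB S ∈ torT (twistedF4 K (2 ^ m)) := by
  have := sB_conj_mem S hτ
  rwa [conjB_inv S] at this

theorem XA_torus {τ : ↥(twistedF4 K (2 ^ m))} (hτ : τ ∈ torT (twistedF4 K (2 ^ m))) {x : ↥(twistedF4 K (2 ^ m))}
    (hx : x ∈ XA S) : τ * x * τ⁻¹ ∈ XA S := by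
  obtain ⟨a, ha⟩ := hx
  exact ⟨_, by simp only [Subgroup.coe_mul, Subgroup.coe_inv, ha]; exact conj_o1 S hτ a⟩

theorem XB_torus {τ : ↥(twistedF4 K (2 ^ m))} (hτ : τ ∈ torT (twistedF4 K (2 ^ m))) {x : ↥(twistedF4 K (2 ^ m))}
    (hx : x ∈ XB S) : τ * x * τ⁻¹ ∈ XB S := by
  obtain ⟨t, v, hv⟩ := hx
  exact ⟨_, _, by simp only [Subgroup.coe_mul, Subgroup.coe_inv, hv]; exact conj_o8 S hτ t v⟩

theorem XA_sq {x : ↥(twistedF4 K (2 ^ m))} (hx : x ∈ XA S) : x * x = 1 := by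
  obtain ⟨a, ha⟩ := hx
  exact Subtype.ext (by rw [Subgroup.coe_mul, ha, o1_law S, CharTwo.add_self_eq_zero, o1_zero]; rfl)

theorem splitA {u : ↥(twistedF4 K (2 ^ m))} (hu : u ∈ UU S) :
    ∃ a ∈ XA S, ∃ u' ∈ UU S, sA S * u' * sA S ∈ UU S ∧ u = u' * a := by
  obtain ⟨a, t2, v2, c, t4, v4, e, t6, v6, y, t8, v8, h⟩ := S.exists_N (inv_mem u.2) (inv_mem hu)
  let A : ↥(twistedF4 K (2 ^ m)) := ⟨o1 σ a, (S.mem_pair a).1⟩
  have hA : A ∈ XA S := ⟨a, rfl⟩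
  refine ⟨A⁻¹, inv_mem hA, u * A, mul_mem hu (XA_le S hA), ?_, by rw [mul_inv_cancel_right]⟩
  have e1 : ((u * A : ↥(twistedF4 K (2 ^ m))) : GL chevF4.Idx K) =
      (o2 σ t2 v2 * o3 σ c * o4 σ t4 v4 * o5 σ e * o6 σ t6 v6 * o7 σ y * o8 σ t8 v8)⁻¹ := by
    rw [Subgroup.coe_mul, ← inv_inv (u : GL chevF4.Idx K), h, N]
    simp only [mul_inv_rev, mul_assoc]
    rw [show (A : GL chevF4.Idx K) = o1 σ a from rfl, inv_mul_cancel, mul_one]
  show ((sA S * (u * A) * sA S : ↥(twistedF4 K (2 ^ m))) : GL chevF4.Idx K) ∈ chevF4.posUnipotent K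
  rw [conjA_coe, e1, ← conj_inv]
  refine inv_mem ?_
  simp only [conj_mul', wA_o2, wA_o3, wA_o4, wA_o5, wA_o6, wA_o7, wA_o8]
  have p := o_mem_U S
  exact mul_mem (mul_mem (mul_mem (mul_mem (mul_mem (mul_mem (p 0 _ _).2.2.2.2.2.2.2 (p _ 0 0).2.2.2.2.2.2.1)
    (p 0 _ _).2.2.2.2.2.1) (p _ 0 0).2.2.2.2.1) (p 0 _ _).2.2.2.1) (p _ 0 0).2.2.1) (p 0 _ _).2.1

theorem splitB {u : ↥(twistedF4 K (2 ^ m))} (hu : u ∈ UU S) :
    ∃ a ∈ XB S, ∃ u' ∈ UU S, sB S * u' * sB S ∈ UU S ∧ u = u' * a := by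
  obtain ⟨a, t2, v2, c, t4, v4, e, t6, v6, y, t8, v8, h⟩ := S.exists_N u.2 hu
  let A : ↥(twistedF4 K (2 ^ m)) := ⟨o8 σ t8 v8, S.mem_o8 t8 v8⟩
  have hA : A ∈ XB S := ⟨t8, v8, rfl⟩
  refine ⟨A, hA, u * A⁻¹, mul_mem hu (inv_mem (XB_le S hA)), ?_, by rw [inv_mul_cancel_right]⟩
  have e1 : ((u * A⁻¹ : ↥(twistedF4 K (2 ^ m))) : GL chevF4.Idx K) =
      o1 σ a * o2 σ t2 v2 * o3 σ c * o4 σ t4 v4 * o5 σ e * o6 σ t6 v6 * o7 σ y := by
    rw [Subgroup.coe_mul, h, N, Subgroup.coe_inv]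
    exact mul_inv_cancel_right _ _
  show ((sB S * (u * A⁻¹) * sB S : ↥(twistedF4 K (2 ^ m))) : GL chevF4.Idx K) ∈ chevF4.posUnipotent K
  rw [conjB_coe, e1]
  simp only [conj_mul', wB_o1, wB_o2, wB_o3, wB_o4, wB_o5, wB_o6, wB_o7]
  have p := o_mem_U S
  exact mul_mem (mul_mem (mul_mem (mul_mem (mul_mem (mul_mem (p _ 0 0).2.2.2.2.2.2.1 (p 0 _ _).2.2.2.2.2.1)
    (p _ 0 0).2.2.2.2.1) (p 0 _ _).2.2.2.1) (p _ 0 0).2.2.1) (p 0 _ _).2.1) (p _ 0 0).1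

theorem sep_of_perm {s x u τ : ↥(twistedF4 K (2 ^ m))} (hs : s * s = 1) (hu : u ∈ UU S)
    (hτ : τ ∈ torT (twistedF4 K (2 ^ m))) (e : s * x * s = u * τ)
    (hneg : ((s * x * s : ↥(twistedF4 K (2 ^ m))) : GL chevF4.Idx K) ∈ chevF4.negUnipotent K) : x = 1 := by
  have hB : ((s * x * s : ↥(twistedF4 K (2 ^ m))) : GL chevF4.Idx K) ∈ chevF4.borelSubgroup K := by
    rw [e]
    exact mul_mem (Subgroup.mem_sup_left hu) (Subgroup.mem_sup_right hτ)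
  have h1 : ((s * x * s : ↥(twistedF4 K (2 ^ m))) : GL chevF4.Idx K) ∈
      chevF4.borelSubgroup K ⊓ chevF4.negUnipotent K := ⟨hB, hneg⟩
  rw [borel_inf_negUnipotent fullF4, Subgroup.mem_bot, ← Subgroup.coe_one] at h1
  have h2 : s * x * s = 1 := Subtype.ext h1
  calc x = (s * s) * x * (s * s) := by rw [hs, one_mul, mul_one]
    _ = s * (s * x * s) * s := by group
    _ = 1 := by rw [h2, mul_one, hs]

theorem negA {x : ↥(twistedF4 K (2 ^ m))} (hx : x ∈ XA S) :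
    ((sA S * x * sA S : ↥(twistedF4 K (2 ^ m))) : GL chevF4.Idx K) ∈ chevF4.negUnipotent K := by
  obtain ⟨a, ha⟩ := hx
  obtain ⟨η, hη⟩ := acts_nW (F := K) fullF4 wlA
  rw [← wA_eq] at hη
  rw [conjA_coe, ha, o1, conj_mul']
  have hX : ∀ r : ℕ, (r = 24 ∨ r = 33) → ∀ z : K, wA * X r z * wA⁻¹ ∈ chevF4.negUnipotent K := fun r hr z =>
    hη.conj_rootsU (S := {r | r = 24 ∨ r = 33}) (T := {r | chevF4.IsNegRoot r})
      (fun q hq => (nodes_neg q).1 hq) _ (xG_mem_rootsU fullF4.cert hr z)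
  exact mul_mem (hX 33 (Or.inr rfl) _) (hX 24 (Or.inl rfl) _)

theorem negB {x : ↥(twistedF4 K (2 ^ m))} (hx : x ∈ XB S) :
    ((sB S * x * sB S : ↥(twistedF4 K (2 ^ m))) : GL chevF4.Idx K) ∈ chevF4.negUnipotent K := by
  obtain ⟨t, v, hv⟩ := hx
  obtain ⟨η, hη⟩ := acts_nW (F := K) fullF4 wlB
  rw [← wB_eq] at hη
  rw [conjB_coe, hv, o8]
  simp only [conj_mul']
  have hX : ∀ r : ℕ, (r = 25 ∨ r = 27 ∨ r = 28 ∨ r = 30) → ∀ z : K,
      wB * X r z * wB⁻¹ ∈ chevF4.negUnipotent K := fun r hr z =>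
    hη.conj_rootsU (S := {r | r = 25 ∨ r = 27 ∨ r = 28 ∨ r = 30}) (T := {r | chevF4.IsNegRoot r})
      (fun q hq => (nodes_neg q).2 hq) _ (xG_mem_rootsU fullF4.cert hr z)
  exact mul_mem (mul_mem (mul_mem (hX 27 (by norm_num) _) (hX 25 (by norm_num) _)) (hX 28 (by norm_num) _))
    (hX 30 (by norm_num) _)

theorem signA {w : ↥(twistedF4 K (2 ^ m))} (hw : w ∈ NN S) :
    (∀ x ∈ XA S, w⁻¹ * x * w ∈ UU S) ∨ ∀ x ∈ XA S, w⁻¹ * (sA S * x * sA S) * w ∈ UU S := by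
  let f : Fin 4 → K → GL chevF4.Idx K := ![o1 σ, o7 σ, o3 σ, o5 σ]
  let P : Fin 4 → Set ↥(twistedF4 K (2 ^ m)) := fun i => {g | ∃ a, (g : GL chevF4.Idx K) = f i a}
  refine sign_of_chain (U := UU S) (sA_mul_self S) (sB_mul_self S) (braid S) (fun τ h => normA S h)
    (fun τ h => normB S h) P ?_ (fun τ hτ x hx => XA_torus S hτ hx) ?_ ?_ ?_ ?_ ?_ ?_ ?_ hw
  · intro i g hg
    obtain ⟨a, ha⟩ := hg
    show (g : GL chevF4.Idx K) ∈ chevF4.posUnipotent K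
    rw [ha]
    fin_cases i
    exacts [(o_mem_U S a 0 0).1, (o_mem_U S a 0 0).2.2.2.2.2.2.1, (o_mem_U S a 0 0).2.2.1, (o_mem_U S a 0 0).2.2.2.2.1]
  all_goals
    rintro g ⟨a, ha⟩
    refine ⟨a, ?_⟩
    simp only [conjA_coe, conjB_coe, ha]
  exacts [wB_o1 σ a, wB_o7 σ a, wA_o7 σ a, wA_o3 σ a, wB_o3 σ a, wB_o5 σ a, wA_o5 σ a]

theorem signB {w : ↥(twistedF4 K (2 ^ m))} (hw : w ∈ NN S) :
    (∀ x ∈ XB S, w⁻¹ * x * w ∈ UU S) ∨ ∀ x ∈ XB S, w⁻¹ * (sB S * x * sB S) * w ∈ UU S := by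
  let f : Fin 4 → K → K → GL chevF4.Idx K := ![o8 σ, o2 σ, o6 σ, o4 σ]
  let P : Fin 4 → Set ↥(twistedF4 K (2 ^ m)) := fun i => {g | ∃ t v, (g : GL chevF4.Idx K) = f i t v}
  have hr : (sB S * sA S) ^ 8 = 1 := by
    rw [← inv_inj, inv_one, ← inv_pow, mul_inv_rev, conjA_inv S, conjB_inv S]
    exact braid S
  refine sign_of_chain (U := UU S) (sB_mul_self S) (sA_mul_self S) hr (fun τ h => normB S h)
    (fun τ h => normA S h) P ?_ (fun τ hτ x hx => XB_torus S hτ hx) ?_ ?_ ?_ ?_ ?_ ?_ ?_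
    (by rwa [NN, Set.pair_comm] at hw)
  · intro i g hg
    obtain ⟨t, v, ha⟩ := hg
    show (g : GL chevF4.Idx K) ∈ chevF4.posUnipotent K
    rw [ha]
    fin_cases i
    exacts [(o_mem_U S 0 t v).2.2.2.2.2.2.2, (o_mem_U S 0 t v).2.1, (o_mem_U S 0 t v).2.2.2.2.2.1,
      (o_mem_U S 0 t v).2.2.2.1]
  all_goals
    rintro g ⟨t, v, ha⟩
    refine ⟨t, v, ?_⟩
    simp only [conjA_coe, conjB_coe, ha]
  exacts [wA_o8 σ t v, wA_o2 σ t v, wB_o2 σ t v, wB_o6 σ t v, wA_o6 σ t v, wA_o4 σ t v, wB_o4 σ t v]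

theorem nodeA : Engine.Node (UU S) (torT (twistedF4 K (2 ^ m))) (NN S) (sA S) (XA S) := by
  have hsep : ∀ x ∈ XA S, ∀ u ∈ UU S, ∀ τ ∈ torT (twistedF4 K (2 ^ m)), sA S * x * sA S = u * τ → x = 1 :=
    fun x hx u hu τ hτ e => sep_of_perm S (sA_mul_self S) hu hτ e (negA S hx)
  exact ⟨XA_le S, sA_mul_self S, Subgroup.mem_sup_right (Subgroup.subset_closure (Or.inl rfl)),
    fun τ h => normA S h, fun u hu => splitA S hu,
    fun x hx hx1 => cell_of_rep S (J := CfsgLib.Twisted.nodeSet chevF4 [0, 3]) ⟨_, by simp, rfl⟩ (isRep_wA S)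
      (XA_le S) (sA_mul_self S) (fun τ hτ x hx => XA_torus S hτ hx) (fun u hu => splitA S hu) hsep hx hx1,
    hsep, fun w hw => signA S hw⟩

theorem nodeB : Engine.Node (UU S) (torT (twistedF4 K (2 ^ m))) (NN S) (sB S) (XB S) := by
  have hsep : ∀ x ∈ XB S, ∀ u ∈ UU S, ∀ τ ∈ torT (twistedF4 K (2 ^ m)), sB S * x * sB S = u * τ → x = 1 :=
    fun x hx u hu τ hτ e => sep_of_perm S (sB_mul_self S) hu hτ e (negB S hx)
  exact ⟨XB_le S, sB_mul_self S, Subgroup.mem_sup_right (Subgroup.subset_closure (Or.inr rfl)),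
    fun τ h => normB S h, fun u hu => splitB S hu,
    fun x hx hx1 => cell_of_rep S (J := CfsgLib.Twisted.nodeSet chevF4 [1, 2]) ⟨_, by simp, rfl⟩ (isRep_wB S)
      (XB_le S) (sB_mul_self S) (fun τ hτ x hx => XB_torus S hτ hx) (fun u hu => splitB S hu) hsep hx hx1,
    hsep, fun w hw => signB S hw⟩

theorem engineData : Engine.Data (UU S) (torT (twistedF4 K (2 ^ m))) (sA S) (sB S) := by
  haveI : Fact (Nat.Prime 2) := ⟨Nat.prime_two⟩
  exact ⟨(CfsgLib.InvCentralizers.ChevalleySteinberg.isPGroup_U (F := K) fullF4).comap_of_injective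
      (twistedF4 K (2 ^ m)).subtype (twistedF4 K (2 ^ m)).subtype_injective,
    odd_torT S, fun τ hτ u hu => tor_norm_U S hτ hu, sA_mul_self S, sB_mul_self S, braid S,
    fun τ h => normA S h, fun τ h => normB S h, fun τ h => longest_inverts S h, torT_le_closure S,
    UU_inter S, UU_gen S⟩

end CfsgLib.ReeFourMult
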