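import Cfsg.Agent.Lib.ReeFourMult.Nodes
import Cfsg.Agent.Lib.SuzukiIdent.Model
import Cfsg.Agent.Lib.Suzuki.Centralizers

/-!
The Levi subgroup of the orbit of type B₂ in `²F₄(q)` acts on its flags as a Suzuki group, so the odd subgroups of
prime power order of its image are cyclic.
-/

set_option autoImplicit false
set_option maxRecDepth 100000
set_option linter.unusedSectionVars false
set_option linter.style.haveILetI false
set_option synthInstance.maxHeartbeats 400000
set_option maxHeartbeats 800000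

namespace CfsgLib.ReeFourMult

open Cfsg.Lie
open CfsgLib.Chevalley hiding xG_mem_group rootsU_le_group
open CfsgLib.TwistedAut (torT)
open CfsgLib.OutAut.F4Pair (full X)
open CfsgLib.ReeFourInvolutions

variable {K : Type*} [Field K] [Fintype K] [CharP K 2] {σ : K →+* K} {m : ℕ} (S : Setting σ m)
include S

/-- the Levi subgroup of the orbit of type B₂ -/
noncomputable def LB : Subgroup ↥(twistedF4 K (2 ^ m)) :=
  Subgroup.closure ((XB S : Set ↥(twistedF4 K (2 ^ m))) ∪ (torT (twistedF4 K (2 ^ m)) : Set _) ∪ {sB S})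

theorem XB_le_LB : XB S ≤ LB S := fun _ hx => Subgroup.subset_closure (Or.inl (Or.inl hx))

theorem torT_le_LB : torT (twistedF4 K (2 ^ m)) ≤ LB S := fun _ hx => Subgroup.subset_closure (Or.inl (Or.inr hx))

theorem sB_mem_LB : sB S ∈ LB S := Subgroup.subset_closure (Or.inr rfl)

theorem centralises {ζ : ↥(twistedF4 K (2 ^ m))} {z : Kˣ} (hζ : IsPar ζ z z) {g : ↥(twistedF4 K (2 ^ m))}
    (hg : g ∈ LB S) : g * ζ = ζ * g := by
  have hle : LB S ≤ Subgroup.centralizer {ζ} := by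
    refine (Subgroup.closure_le _).2 ?_
    rintro y ((hy | hy) | rfl) <;> rw [SetLike.mem_coe, Subgroup.mem_centralizer_singleton_iff]
    · obtain ⟨t, v, hv⟩ := hy
      have h1 : lchar K m 1 ζ = 1 ∧ lchar K m 3 ζ = 1 := by
        rw [hζ.2 1 (by norm_num), hζ.2 3 (by norm_num), ← zpow_add, ← zpow_add,
          show expE m 1 + expF m 1 = 0 by simp [expE, expF, expTab],
          show expE m 3 + expF m 3 = 0 by simp [expE, expF, expTab]; ring, zpow_zero, Units.val_one]
        exact ⟨rfl, rfl⟩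
      refine Subtype.ext ?_
      have := conj_o8 S hζ.1 t v
      rw [h1.1, h1.2, one_mul, one_mul, mul_inv_eq_iff_eq_mul] at this
      rw [Subgroup.coe_mul, Subgroup.coe_mul, hv]
      exact this.symm
    · exact (chain S).torus_comm _ hy _ hζ.1
    · have := (hζ.sB S).unique S hζ
      rw [mul_inv_eq_iff_eq_mul] at this
      exact this
  exact Subgroup.mem_centralizer_singleton_iff.1 (hle hg)

theorem exists_unit_ne_one (hm : 1 ≤ m) : ∃ z : Kˣ, z ≠ 1 := by
  have h8 : 2 ^ 3 ≤ 2 ^ (2 * m + 1) := Nat.pow_le_pow_right (by norm_num) (by omega)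
  haveI : Nontrivial Kˣ := by
    rw [← Finite.one_lt_card_iff_nontrivial, Nat.card_units, S.card]
    omega
  exact exists_ne 1

omit S in
theorem diag_ok : ∀ k : Fin 12, (k : ℕ) ≠ 1 → (k : ℕ) ≠ 3 →
    goodOne ((expTab.getD k ((0, 0), (0, 0))).1.1 + (expTab.getD k ((0, 0), (0, 0))).2.1,
      (expTab.getD k ((0, 0), (0, 0))).1.2 + (expTab.getD k ((0, 0), (0, 0))).2.2) = true := by
  decide +kernel

theorem zpow_inj {E : ℤ} (hE : IsCoprime E (2 * ((2 : ℤ) ^ m) ^ 2 - 1)) :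
    Function.Injective fun z : Kˣ => z ^ E :=
  Finite.injective_iff_surjective.2 fun u => exists_zpow S hE u

theorem mem_XB_of_commute (hm : 1 ≤ m) {u : ↥(twistedF4 K (2 ^ m))} (hu : u ∈ UU S)
    (hcomm : ∀ ζ z, IsPar ζ z z → u * ζ = ζ * u) : u ∈ XB S := by
  have H := chain S
  obtain ⟨z, hz⟩ := exists_unit_ne_one S hm
  obtain ⟨ζ, hζ⟩ := exists_par S z z
  suffices h : ∀ d k, k + d = 12 → ∀ u ∈ lay K m k, u * ζ = ζ * u → u ∈ XB S from
    h 12 0 rfl u (by rw [lay_zero]; exact hu) (hcomm ζ z hζ)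
  intro d
  induction d with
  | zero =>
    intro k hk u hu _
    obtain rfl : k = 12 := by omega
    rw [H.bot, Subgroup.mem_bot] at hu
    exact hu ▸ one_mem _
  | succ d ih =>
    intro k hk u hu hcu
    have hk12 : k < 12 := by omega
    by_cases h13 : k = 1 ∨ k = 3
    · have hr : repG S k (head K m k u) ∈ XB S := by
        rcases h13 with rfl | rfl
        · exact ⟨head K m 1 u, 0, rfl⟩
        · exact ⟨0, head K m 3 u, rfl⟩
      have hcr := centralises S hζ (XB_le_LB S hr)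
      obtain ⟨hrm, hrh⟩ := repG_head S hk12 (head K m k u)
      have hq := H.div_mem hk12 hrm hu hrh
      have := ih (k + 1) (by omega) _ hq
        ((Commute.inv_left (show Commute (repG S k (head K m k u)) ζ from hcr)).mul_left hcu).eq
      have h2 := mul_mem hr this
      rwa [mul_inv_cancel_left] at h2
    · simp only [not_or] at h13
      have e : ζ * u * ζ⁻¹ = u := by rw [← hcu, mul_inv_cancel_right]
      have h1 := (H.scale k hk12 ζ hζ.1 u hu).2
      rw [e, hζ.2 k hk12, ← zpow_add] at h1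
      have hne : z ^ (expE m k + expF m k) ≠ 1 := by
        intro h0
        refine hz (zpow_inj S (E := expE m k + expF m k) ?_ (h0.trans (one_zpow _).symm))
        have h := diag_ok ⟨k, hk12⟩ h13.1 h13.2
        have := coprime_of_norm (θ := (2 : ℤ) ^ m)
          (a := (expTab.getD k ((0, 0), (0, 0))).1.2 + (expTab.getD k ((0, 0), (0, 0))).2.2)
          (b := (expTab.getD k ((0, 0), (0, 0))).1.1 + (expTab.getD k ((0, 0), (0, 0))).2.1) (c := 0)
          (by simpa [goodOne] using h)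
        convert this using 1
        simp only [expE, expF]
        ring
      have h0 : head K m k u = 0 := by
        by_contra hh
        refine hne (Units.ext ?_)
        rw [Units.val_one]
        exact (mul_eq_right₀ hh).1 h1.symm
      exact ih (k + 1) (by omega) u ((H.zero k hk12 u hu).1 h0) hcu

theorem cellB (hm : 1 ≤ m) {x : ↥(twistedF4 K (2 ^ m))} (hx : x ∈ XB S) (hx1 : x ≠ 1) :
    ∃ u ∈ XB S, ∃ τ ∈ torT (twistedF4 K (2 ^ m)), ∃ b ∈ XB S, sB S * x * sB S = u * τ * sB S * b := by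
  obtain ⟨u, hu, τ, hτ, b, hb, e⟩ := (nodeB S).cell x hx hx1
  refine ⟨u, mem_XB_of_commute S hm hu fun ζ z hζ => ?_, τ, hτ, b, hb, e⟩
  have hmem : u ∈ LB S := by
    have h1 : u = sB S * x * sB S * (τ * sB S * b)⁻¹ := by rw [e]; group
    rw [h1]
    exact mul_mem (mul_mem (mul_mem (sB_mem_LB S) (XB_le_LB S hx)) (sB_mem_LB S))
      (inv_mem (mul_mem (mul_mem (torT_le_LB S hτ) (sB_mem_LB S)) (XB_le_LB S hb)))
  exact centralises S hζ hmem

theorem LB_cases (hm : 1 ≤ m) {g : ↥(twistedF4 K (2 ^ m))} (hg : g ∈ LB S) :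
    (∃ x ∈ XB S, ∃ τ ∈ torT (twistedF4 K (2 ^ m)), g = x * τ) ∨
      ∃ x ∈ XB S, ∃ τ ∈ torT (twistedF4 K (2 ^ m)), ∃ b ∈ XB S, g = x * τ * sB S * b := by
  set R : Set ↥(twistedF4 K (2 ^ m)) := {g | (∃ x ∈ XB S, ∃ τ ∈ torT (twistedF4 K (2 ^ m)), g = x * τ) ∨
      ∃ x ∈ XB S, ∃ τ ∈ torT (twistedF4 K (2 ^ m)), ∃ b ∈ XB S, g = x * τ * sB S * b}
  have hX : ∀ y ∈ XB S, ∀ g ∈ R, y * g ∈ R := by
    rintro y hy g (⟨x, hx, τ, hτ, rfl⟩ | ⟨x, hx, τ, hτ, b, hb, rfl⟩)
    · exact Or.inl ⟨y * x, mul_mem hy hx, τ, hτ, by group⟩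
    · exact Or.inr ⟨y * x, mul_mem hy hx, τ, hτ, b, hb, by group⟩
  have hT : ∀ y ∈ torT (twistedF4 K (2 ^ m)), ∀ g ∈ R, y * g ∈ R := by
    rintro y hy g (⟨x, hx, τ, hτ, rfl⟩ | ⟨x, hx, τ, hτ, b, hb, rfl⟩)
    · exact Or.inl ⟨_, XB_torus S hy hx, y * τ, mul_mem hy hτ, by group⟩
    · exact Or.inr ⟨_, XB_torus S hy hx, y * τ, mul_mem hy hτ, b, hb, by group⟩
  have hsi := conjB_inv S
  have hss := sB_mul_self S
  have hs : ∀ g ∈ R, sB S * g ∈ R := by
    rintro g (⟨x, hx, τ, hτ, rfl⟩ | ⟨x, hx, τ, hτ, b, hb, rfl⟩)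
    · refine Or.inr ⟨1, one_mem _, sB S * τ * sB S, normB S hτ, τ⁻¹ * x * τ,
        by simpa using XB_torus S (inv_mem hτ) hx, ?_⟩
      calc sB S * (x * τ) = sB S * τ * (τ⁻¹ * x * τ) := by group
        _ = sB S * τ * (sB S * sB S) * (τ⁻¹ * x * τ) := by rw [hss, mul_one]
        _ = _ := by group
    · by_cases hx1 : x = 1
      · subst hx1
        refine Or.inl ⟨_, XB_torus S (normB S hτ) hb, sB S * τ * sB S, normB S hτ, ?_⟩
        group
      · obtain ⟨u, hu, τ', hτ', b', hb', e⟩ := cellB S hm hx hx1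
        refine Or.inr ⟨u, hu, τ' * (sB S * (sB S * τ * sB S) * sB S),
          mul_mem hτ' (normB S (normB S hτ)), (sB S * τ * sB S)⁻¹ * b' * (sB S * τ * sB S) * b,
          mul_mem (by simpa using XB_torus S (inv_mem (normB S hτ)) hb') hb, ?_⟩
        calc sB S * (x * τ * sB S * b) = sB S * x * (sB S * sB S) * τ * sB S * b := by rw [hss]; group
          _ = (sB S * x * sB S) * (sB S * τ * sB S) * b := by group
          _ = u * τ' * sB S * b' * (sB S * τ * sB S) * b := by rw [e]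
          _ = u * τ' * (sB S * (sB S * τ * sB S) * (sB S * sB S)) * (sB S * τ * sB S)⁻¹ * b' *
              (sB S * τ * sB S) * b := by rw [hss]; group
          _ = _ := by group
  have h1 : (1 : ↥(twistedF4 K (2 ^ m))) ∈ R := Or.inl ⟨1, one_mem _, 1, one_mem _, (one_mul 1).symm⟩
  refine Subgroup.closure_induction_left (p := fun y _ => y ∈ R) h1 (fun y hy g _ hgR => ?_)
    (fun y hy g _ hgR => ?_) hg
  · rcases hy with (hy | hy) | rfl
    exacts [hX y hy g hgR, hT y hy g hgR, hs g hgR]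
  · rcases hy with (hy | hy) | rfl
    exacts [hX _ (inv_mem hy) g hgR, hT _ (inv_mem hy) g hgR, by rw [hsi]; exact hs g hgR]

/-- the Borel subgroup of the Levi subgroup -/
noncomputable def BB : Subgroup ↥(LB S) where
  carrier := {g | ∃ x ∈ XB S, ∃ τ ∈ torT (twistedF4 K (2 ^ m)), (g : ↥(twistedF4 K (2 ^ m))) = x * τ}
  one_mem' := ⟨1, one_mem _, 1, one_mem _, (one_mul 1).symm⟩
  mul_mem' := by
    rintro g h ⟨x, hx, τ, hτ, e⟩ ⟨x', hx', τ', hτ', e'⟩
    exact ⟨x * (τ * x' * τ⁻¹), mul_mem hx (XB_torus S hτ hx'), τ * τ', mul_mem hτ hτ',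
      by rw [Subgroup.coe_mul, e, e']; group⟩
  inv_mem' := by
    rintro g ⟨x, hx, τ, hτ, e⟩
    exact ⟨τ⁻¹ * x⁻¹ * τ⁻¹⁻¹, XB_torus S (inv_mem hτ) (inv_mem hx), τ⁻¹, inv_mem hτ,
      by rw [Subgroup.coe_inv, e]; group⟩

/-- the action on the flags -/
noncomputable def permB : ↥(LB S) →* Equiv.Perm (↥(LB S) ⧸ BB S) :=
  MulAction.toPermHom ↥(LB S) (↥(LB S) ⧸ BB S)

theorem sep_BB {x : ↥(twistedF4 K (2 ^ m))} (hx : x ∈ XB S) {g : ↥(LB S)} (hg : g ∈ BB S)
    (e : (g : ↥(twistedF4 K (2 ^ m))) = sB S * x * sB S) : x = 1 := by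
  obtain ⟨x', hx', τ, hτ, e'⟩ := hg
  exact (nodeB S).sep x hx x' (XB_le S hx') τ hτ (e.symm.trans e')

theorem permB_eq_one_of_par {g : ↥(LB S)} {z : Kˣ} (hg : IsPar (g : ↥(twistedF4 K (2 ^ m))) z z) :
    permB S g = 1 := by
  refine Equiv.ext fun q => ?_
  induction q using QuotientGroup.induction_on with
  | H y =>
    show g • (QuotientGroup.mk y : ↥(LB S) ⧸ BB S) = QuotientGroup.mk y
    rw [MulAction.Quotient.smul_mk, QuotientGroup.eq, smul_eq_mul]
    refine ⟨1, one_mem _, _, inv_mem hg.1, ?_⟩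
    have h := centralises S hg y.2
    simp only [Subgroup.coe_mul, Subgroup.coe_inv, one_mul, mul_inv_rev]
    calc (y : ↥(twistedF4 K (2 ^ m)))⁻¹ * (g : ↥(twistedF4 K (2 ^ m)))⁻¹ * y
        = ((g : ↥(twistedF4 K (2 ^ m))) * y)⁻¹ * y := by group
      _ = _ := by rw [← h]; group

theorem permB_ker {g : ↥(LB S)} (hg : permB S g = 1) :
    ∃ z, IsPar (g : ↥(twistedF4 K (2 ^ m))) z z := by
  have hfix : ∀ y : ↥(LB S), y⁻¹ * g * y ∈ BB S := fun y => by
    have h : g • (QuotientGroup.mk y : ↥(LB S) ⧸ BB S) = QuotientGroup.mk y :=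
      Equiv.ext_iff.1 hg (QuotientGroup.mk y)
    rw [MulAction.Quotient.smul_mk, QuotientGroup.eq, smul_eq_mul] at h
    have := inv_mem h
    rwa [mul_inv_rev, inv_inv, ← mul_assoc] at this
  obtain ⟨x, hx, τ, hτ, e⟩ : g ∈ BB S := by simpa using hfix 1
  let s : ↥(LB S) := ⟨sB S, sB_mem_LB S⟩
  have hsi := conjB_inv S
  have hconj : ∀ y ∈ XB S, y⁻¹ * x * (τ * y * τ⁻¹) = 1 := fun y hy => by
    have h1 := hfix (⟨y, XB_le_LB S hy⟩ * s)
    obtain ⟨x', hx', τ', hτ', e'⟩ := h1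
    refine (nodeB S).sep _ (mul_mem (mul_mem (inv_mem hy) hx) (XB_torus S hτ hy)) x' (XB_le S hx')
      (τ' * (sB S * τ * sB S)⁻¹) (mul_mem hτ' (inv_mem (normB S hτ))) ?_
    simp only [Subgroup.coe_mul, Subgroup.coe_inv, e, mul_inv_rev, s, hsi] at e'
    calc sB S * (y⁻¹ * x * (τ * y * τ⁻¹)) * sB S
        = sB S * y⁻¹ * (x * τ) * (y * sB S) * (sB S)⁻¹ * τ⁻¹ * sB S := by group
      _ = (x' * τ') * (sB S)⁻¹ * τ⁻¹ * sB S := by rw [← e']
      _ = _ := by rw [hsi]; simp only [mul_inv_rev, hsi]; group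
  have hx1 : x = 1 := by simpa using hconj 1 (one_mem _)
  subst hx1
  rw [one_mul] at e
  obtain ⟨z, w, hp⟩ := exists_par_of_mem S hτ
  refine ⟨z, ?_⟩
  have h1 := hconj (repG S 1 1) ⟨1, 0, rfl⟩
  rw [mul_one, inv_mul_eq_one] at h1
  have h2 := ((chain S).scale 1 (by norm_num) τ hτ _ (repG_head S (by norm_num) 1).1).2
  rw [← h1, (repG_head S (by norm_num) 1).2, mul_one, hp.2 1 (by norm_num),
    show expE m 1 = -1 by simp [expE, expTab], show expF m 1 = 1 by simp [expF, expTab], zpow_neg, zpow_one,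
    zpow_one] at h2
  obtain rfl : w = z := (inv_mul_eq_one.1 (Units.ext (by rw [Units.val_one]; exact h2.symm))).symm
  rw [e]
  exact hp

theorem o8_mem_LB (t v : K) : (⟨o8 σ t v, S.mem_o8 t v⟩ : ↥(twistedF4 K (2 ^ m))) ∈ LB S :=
  XB_le_LB S ⟨t, v, rfl⟩

/-- the coordinates of the Suzuki setup -/
noncomputable def uB (a b : K) : ↥(LB S) := ⟨_, o8_mem_LB S a (b + σ a ^ 2 * a)⟩

theorem hyp (hm : 1 ≤ m) : CfsgLib.Suzuki.Hyp K m :=
  CfsgLib.Suzuki.Hyp.of_fintype hm (by rw [← Nat.card_eq_fintype_card]; exact S.card)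

theorem th_eq (x : K) : CfsgLib.Suzuki.th m x = σ x ^ 2 := by
  rw [CfsgLib.Suzuki.th, S.pow, ← pow_mul, ← pow_succ]

theorem uB_mul (a b c d : K) : uB S a b * uB S c d = uB S (a + c) (b + d + σ a ^ 2 * c) := by
  refine Subtype.ext (Subtype.ext ?_)
  show o8 σ a (b + σ a ^ 2 * a) * o8 σ c (d + σ c ^ 2 * c) = o8 σ (a + c) (b + d + σ a ^ 2 * c + σ (a + c) ^ 2 * (a + c))
  rw [o8_law S]
  congr 1
  have h2 : (2 : K) = 0 := CharTwo.two_eq_zero
  rw [map_add]
  grind

theorem uB_eq_one {a b : K} (h : uB S a b = 1) : a = 0 ∧ b = 0 := by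
  have h' : o8 σ a (b + σ a ^ 2 * a) = (1 : GL chevF4.Idx K) := congrArg (fun g : ↥(LB S) => ((g : ↥(twistedF4 K (2 ^ m))) : GL chevF4.Idx K)) h
  f4_coords_at h'
  obtain ⟨e24, e25, e26, e27, e28, e29, e30, e31, e32, e33, e34, e35, e36, e37, e38, e39, e40, e41, e42, e43, e44, e45, e46, e47⟩ := h'
  obtain rfl : a = 0 := by grind
  simp only [map_zero] at *
  refine ⟨by trivial, ?_⟩
  grind

theorem sq_units_bijective : Function.Bijective fun z : Kˣ => z ^ 2 := by
  refine Finite.injective_iff_bijective.1 fun x y h => ?_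
  have h3 : ((x : K)) ^ 2 = (y : K) ^ 2 := by
    simpa only [← Units.val_pow_eq_pow_val] using congrArg Units.val h
  exact Units.ext (CharTwo.sq_injective h3)

/-- The image is a Suzuki group. -/
theorem nonempty_equiv_sz (hm : 1 ≤ m) : Nonempty ((permB S).range ≃* Cfsg.Sz K m) := by
  classical
  have h := hyp S hm
  haveI := h.finite_group
  let s : ↥(LB S) := ⟨sB S, sB_mem_LB S⟩
  have hss : s * s = 1 := Subtype.ext (sB_mul_self S)
  have hsi : s⁻¹ = s := inv_eq_of_mul_eq_one_right hss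
  let q : ↥(LB S) →* (permB S).range := (permB S).rangeRestrict
  choose tz htz using fun k : Kˣ => exists_par S ((Equiv.ofBijective _ (sq_units_bijective S)).symm k)⁻¹
    ((Equiv.ofBijective _ (sq_units_bijective S)).symm k)
  set rt := fun k : Kˣ => (Equiv.ofBijective _ (sq_units_bijective S)).symm k with hrt
  have hrt2 : ∀ k, rt k ^ 2 = k := fun k => (Equiv.ofBijective _ (sq_units_bijective S)).apply_symm_apply k
  have hrtmul : ∀ k k', rt (k * k') = rt k * rt k' := fun k k' =>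
    (sq_units_bijective S).1 (show rt (k * k') ^ 2 = (rt k * rt k') ^ 2 by rw [mul_pow, hrt2, hrt2, hrt2])
  let H₀ : Kˣ →* ↥(LB S) := MonoidHom.mk' (fun k => ⟨tz k, torT_le_LB S (htz k).1⟩) fun k k' => Subtype.ext (by
    refine IsPar.unique S (htz (k * k')) ?_
    rw [show (Equiv.ofBijective _ (sq_units_bijective S)).symm (k * k') = rt k * rt k' from hrtmul k k', mul_inv]
    exact (htz k).mul S (htz k'))
  have hscale : ∀ (k : Kˣ) (a b : K), H₀ k * uB S a b = uB S (k * a) (k * σ k ^ 2 * b) * H₀ k := by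
    intro k a b
    refine Subtype.ext (Subtype.ext ?_)
    show (tz k : GL chevF4.Idx K) * o8 σ a (b + σ a ^ 2 * a) =
      o8 σ (k * a) (k * σ k ^ 2 * b + σ (k * a) ^ 2 * (k * a)) * (tz k : GL chevF4.Idx K)
    have := conj_o8 S (htz k).1 a (b + σ a ^ 2 * a)
    rw [mul_inv_eq_iff_eq_mul] at this
    rw [this]
    have hk2 : ((rt k : Kˣ) : K) ^ 2 = (k : K) := by rw [← Units.val_pow_eq_pow_val, hrt2]
    have hz : IsPar (tz k) (rt k)⁻¹ (rt k) := htz k
    congr 2
    · congr 1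
      rw [hz.2 1 (by norm_num), ← hk2, show expE m 1 = -1 by simp [expE, expTab],
        show expF m 1 = 1 by simp [expF, expTab]]
      simp only [zpow_neg, zpow_one, inv_inv, pow_two, Units.val_mul]
    · rw [hz.2 3 (by norm_num), show expE m 3 = -((2 * 2 ^ m + 1 : ℕ) : ℤ) by simp [expE, expTab]; ring,
        show expF m 3 = ((2 * 2 ^ m + 1 : ℕ) : ℤ) by simp [expF, expTab]; ring]
      simp only [zpow_neg, zpow_natCast, inv_pow, inv_inv, Units.val_mul, Units.val_pow_eq_pow_val, map_mul, mul_pow]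
      rw [← hk2, map_pow, S.pow (((rt k : Kˣ) : K))]
      ring
  let Ω := ↥(LB S) ⧸ BB S
  have hact : ∀ (g : ↥(LB S)) (y : ↥(LB S)),
      (q g) • (QuotientGroup.mk y : Ω) = QuotientGroup.mk (g * y) := fun g y => rfl
  have hBB : ∀ (g y : ↥(LB S)), y⁻¹ * g * y ∈ BB S → (q g) • (QuotientGroup.mk y : Ω) = QuotientGroup.mk y :=
    fun g y hy => by
      rw [hact, QuotientGroup.eq]
      have := inv_mem hy
      rwa [show (y⁻¹ * g * y)⁻¹ = (g * y)⁻¹ * y by group] at this
  have hUB : ∀ a b, uB S a b ∈ BB S := fun a b =>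
    ⟨_, ⟨a, b + σ a ^ 2 * a, rfl⟩, 1, one_mem _, (mul_one _).symm⟩
  have hHB : ∀ k, H₀ k ∈ BB S := fun k => ⟨1, one_mem _, tz k, (htz k).1, (one_mul _).symm⟩
  have hHs : ∀ k, s * H₀ k * s = H₀ k⁻¹ := fun k => Subtype.ext (by
    show sB S * tz k * sB S = tz k⁻¹
    have h1 := (htz k).sB S
    rw [conjB_inv S] at h1
    refine IsPar.unique S h1 ?_
    have h2 := htz k⁻¹
    have e : rt k⁻¹ = (rt k)⁻¹ := (sq_units_bijective S).1 (show rt k⁻¹ ^ 2 = (rt k)⁻¹ ^ 2 by rw [hrt2, inv_pow, hrt2])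
    rw [show (Equiv.ofBijective _ (sq_units_bijective S)).symm k⁻¹ = (rt k)⁻¹ from e, inv_inv] at h2
    exact h2)
  have hdecomp : ∀ g : ↥(LB S), g ∈ BB S →
      ∃ a b k, q g = q (uB S a b) * q (H₀ k) := by
    rintro g ⟨x, ⟨t, v, hx⟩, τ, hτ, e⟩
    obtain ⟨z, w, hp⟩ := exists_par_of_mem S hτ
    refine ⟨t, v + σ t ^ 2 * t, w * z⁻¹, ?_⟩
    rw [← map_mul]
    set k := w * z⁻¹ with hk
    have hζ : IsPar ((tz k)⁻¹ * τ) (z * rt k) (w * (rt k)⁻¹) := by
      have := ((htz k).inv S).mul S hp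
      rw [show (Equiv.ofBijective _ (sq_units_bijective S)).symm k = rt k from rfl, inv_inv, mul_comm (rt k) z,
        mul_comm (rt k)⁻¹ w] at this
      exact this
    have hzz : z * rt k = w * (rt k)⁻¹ := by
      rw [eq_mul_inv_iff_mul_eq, mul_assoc, ← pow_two, hrt2, hk, mul_comm w, mul_inv_cancel_left]
    rw [← hzz] at hζ
    let ζ : ↥(LB S) := ⟨_, torT_le_LB S hζ.1⟩
    have hqζ : q ζ = 1 := Subtype.ext (permB_eq_one_of_par S hζ)
    have hg : g = uB S t (v + σ t ^ 2 * t) * H₀ k * ζ := by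
      refine Subtype.ext ?_
      show (g : ↥(twistedF4 K (2 ^ m))) =
        ⟨o8 σ t (v + σ t ^ 2 * t + σ t ^ 2 * t), S.mem_o8 _ _⟩ * tz k * ((tz k)⁻¹ * τ)
      rw [e, mul_assoc, mul_inv_cancel_left]
      congr 1
      refine Subtype.ext ?_
      rw [hx]
      show o8 σ t v = o8 σ t (v + σ t ^ 2 * t + σ t ^ 2 * t)
      rw [add_assoc, CharTwo.add_self_eq_zero, add_zero]
    rw [hg, map_mul, hqζ, mul_one]
  have htwist : ∀ x : K, CfsgLib.SuzukiIdent.twist h x = σ x ^ 2 := fun x => th_eq S x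
  let St : CfsgLib.SuzukiIdent.Setup (permB S).range Ω K :=
    { φ := CfsgLib.SuzukiIdent.twist h
      U := fun a b => q (uB S a b)
      H := q.comp H₀
      τ := q s
      inf := QuotientGroup.mk 1
      zero := QuotientGroup.mk s
      U_mul := fun a b c d => by rw [← map_mul, uB_mul S, htwist]
      H_U := fun k a b => by
        show q (H₀ k) * q (uB S a b) = q (uB S _ _) * q (H₀ k)
        rw [← map_mul, ← map_mul, hscale, htwist]
      τ_sq := by rw [← map_mul, hss, map_one]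
      τ_H := fun k => by
        show q s * q (H₀ k) = q (H₀ k⁻¹) * q s
        rw [← map_mul, ← map_mul, ← hHs, mul_assoc, hss, mul_one]
      τ_inf := by rw [hact, mul_one]
      U_inf := fun a b => hBB _ _ (by simpa using hUB a b)
      H_inf := fun k => hBB _ _ (by simpa using hHB k)
      H_zero := fun k => hBB _ _ (by rw [hsi, hHs]; exact hHB _)
      ne_inf := fun a b e => by
        rw [hact, QuotientGroup.eq, mul_one] at e
        have hs0 : s ∈ BB S := by
          have := mul_mem (inv_mem (hUB a b)) (inv_mem e)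
          rwa [inv_inv, inv_mul_cancel_left] at this
        obtain ⟨x, hx, τ, hτ, e'⟩ := hs0
        have h1 : sB S = 1 := by
          refine UU_inter S _ ?_ (Subgroup.mem_sup_right (Subgroup.subset_closure (Or.inr rfl)))
          have h2 : τ = 1 := by
            have hN : x ∈ NN S := by
              rw [show x = sB S * τ⁻¹ by rw [show sB S = x * τ from e', mul_inv_cancel_right]]
              exact mul_mem (Subgroup.mem_sup_right (Subgroup.subset_closure (Or.inr rfl)))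
                (Subgroup.mem_sup_left (inv_mem hτ))
            have hx1 := UU_inter S x (XB_le S hx) hN
            have h3 : sB S = τ := by rw [show sB S = x * τ from e', hx1, one_mul]
            have h4 : orderOf (⟨τ, hτ⟩ : torT (twistedF4 K (2 ^ m))) ∣ 2 :=
              orderOf_dvd_of_pow_eq_one (Subtype.ext (by
                rw [Subgroup.coe_pow, pow_two]; show τ * τ = 1; rw [← h3, sB_mul_self S]))
            exact congrArg Subtype.val (orderOf_eq_one_iff.1
              (Nat.eq_one_of_dvd_coprimes (Nat.coprime_two_left.2 (odd_torT S)) h4 (orderOf_dvd_natCard _)))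
          rw [show sB S = x * τ from e', h2, mul_one]
          exact XB_le S hx
        obtain ⟨t, ht⟩ := exists_unit_ne_one S hm
        obtain ⟨ρ, hρ⟩ := exists_par S t 1
        have h5 := hρ.sB S
        rw [h1, one_mul, inv_one, mul_one] at h5
        have h6 := (h5.eight S).1
        rw [(hρ.eight S).1, one_pow] at h6
        exact ht ((A2_bijective S).1 (Units.ext (by simpa using h6)))
      inj := fun a b c d e => by
        rw [hact, hact, QuotientGroup.eq] at e
        have h1 : (uB S a b)⁻¹ * uB S c d = 1 := by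
          refine Subtype.ext (sep_BB S ?_ e ?_)
          · exact mul_mem (inv_mem ⟨a, _, rfl⟩) ⟨c, _, rfl⟩
          · simp only [Subgroup.coe_mul, Subgroup.coe_inv, mul_inv_rev, s, conjB_inv S, mul_assoc]
        have h2 : uB S a b = uB S c d := inv_mul_eq_one.1 h1
        have h3 : uB S a b * uB S a (b + σ a ^ 2 * a) = 1 := by
          rw [uB_mul S, CharTwo.add_self_eq_zero]
          refine Subtype.ext (Subtype.ext ?_)
          show o8 σ 0 _ = _
          rw [map_zero, show b + (b + σ a ^ 2 * a) + σ a ^ 2 * a + (0 : K) ^ 2 * 0 = 0 by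
            linear_combination (b + σ a ^ 2 * a) * (CharTwo.two_eq_zero : (2 : K) = 0), o8_zero]
          rfl
        rw [h2, uB_mul S] at h3
        obtain ⟨e1, e2⟩ := uB_eq_one S h3
        obtain rfl : c = a := CharTwo.add_eq_zero.1 e1
        exact ⟨rfl, by linear_combination e2 - (d + σ c ^ 2 * c) * (CharTwo.two_eq_zero : (2 : K) = 0)⟩
      surj := fun x hx => by
        induction x using QuotientGroup.induction_on with
        | H g =>
          rcases LB_cases S hm g.2 with hg | ⟨x, ⟨t, v, hxv⟩, τ, hτ, b, hb, e⟩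
          · have hgB : g ∈ BB S := hg
            refine absurd (QuotientGroup.eq.2 ?_) hx
            rw [mul_one]; exact inv_mem hgB
          · refine ⟨t, v + σ t ^ 2 * t, ?_⟩
            rw [hact, QuotientGroup.eq]
            refine ⟨_, XB_torus S (normB S hτ) hb, sB S * τ * sB S, normB S hτ, ?_⟩
            simp only [Subgroup.coe_mul, Subgroup.coe_inv, e, s]
            have hu : ((uB S t (v + σ t ^ 2 * t) : ↥(LB S)) : ↥(twistedF4 K (2 ^ m))) = x := by
              refine Subtype.ext ?_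
              show o8 σ t (v + σ t ^ 2 * t + σ t ^ 2 * t) = _
              rw [add_assoc, CharTwo.add_self_eq_zero, add_zero, hxv]
            rw [hu, show (x * sB S)⁻¹ * (x * τ * sB S * b) = (sB S)⁻¹ * τ * sB S * b by group, conjB_inv S]
            group
      stab := fun g hg => by
        obtain ⟨_, y, rfl⟩ := g
        have hy : y ∈ BB S := by
          have h0 : (QuotientGroup.mk (y * 1) : Ω) = QuotientGroup.mk 1 := (hact y 1).symm.trans hg
          rw [QuotientGroup.eq, mul_one, mul_one] at h0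
          simpa using inv_mem h0
        obtain ⟨a, b, k, e⟩ := hdecomp y hy
        exact ⟨a, b, k, e⟩
      faithful := fun g hg => Subtype.ext (Equiv.ext hg)
      minj := fun x y e => by
        refine Units.ext (h.th_mul_self_bijective.1 ?_)
        have e' : (x : K) * CfsgLib.Suzuki.th m (x : K) = (y : K) * CfsgLib.Suzuki.th m (y : K) := e
        linear_combination e' }
  obtain ⟨M, hM⟩ := CfsgLib.SuzukiIdent.exists_model h
  obtain ⟨S₁, b₁, hN₁⟩ := St.exists_isNorm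
  obtain ⟨c₁, hc₁⟩ := CfsgLib.SuzukiIdent.Setup.exists_param hN₁
  obtain ⟨S₂, hN₂, hsq⟩ : ∃ S₂ : CfsgLib.SuzukiIdent.Setup (permB S).range Ω K,
      S₂.IsNorm 0 ∧ ∀ x, S₂.φ (S₂.φ x) = x * x := by
    rcases hc₁.classify with ⟨rfl, hsq⟩ | ⟨rfl, hsq⟩
    · exact ⟨S₁, hN₁, hsq⟩
    · obtain ⟨S₂, hφ, hN₂⟩ := S₁.exists_swap hN₁ rfl
      exact ⟨S₂, hN₂, fun x => by rw [hφ]; exact hsq x⟩
  obtain ⟨M₁, b₂, hM₁⟩ := M.exists_isNorm
  obtain ⟨c₂, hc₂⟩ := CfsgLib.SuzukiIdent.Setup.exists_param hM₁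
  obtain ⟨M₂, hM₂, hsq₁⟩ : ∃ M₂ : CfsgLib.SuzukiIdent.Setup (Cfsg.Sz K m) (Cfsg.suzukiOvoid K m) K,
      M₂.IsNorm 0 ∧ ∀ x, M₂.φ (M₂.φ x) = x * x := by
    rcases hc₂.classify with ⟨rfl, hsq'⟩ | ⟨rfl, hsq'⟩
    · exact ⟨M₁, hM₁, hsq'⟩
    · obtain ⟨M₂, hφ, hN'⟩ := M₁.exists_swap hM₁ rfl
      exact ⟨M₂, hN', fun x => by rw [hφ]; exact hsq' x⟩
  have hF : Fintype.card K = 2 ^ (2 * m + 1) := by rw [← Nat.card_eq_fintype_card]; exact S.card
  have hφ : M₂.φ = S₂.φ := RingEquiv.ext fun x => by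
    rw [CfsgLib.SuzukiIdent.twist_eq hm hF _ hsq₁, CfsgLib.SuzukiIdent.twist_eq hm hF _ hsq]
  exact CfsgLib.SuzukiIdent.nonempty_equiv S₂ M₂ hφ hN₂ hM₂

theorem isCyclic_of_odd (hm : 1 ≤ m) (p : ℕ) (hp : p.Prime) (hp2 : p ≠ 2)
    (R : Subgroup (permB S).range) (hR : IsPGroup p R) : IsCyclic R := by
  haveI := Fact.mk hp
  obtain ⟨e⟩ := nonempty_equiv_sz S hm
  haveI := (hyp S hm).isCyclic_of_odd_pGroup hp2 (R.map e.toMonoidHom) (hR.map _)
  exact isCyclic_of_surjective (R.equivMapOfInjective e.toMonoidHom e.injective).symm.toMonoidHom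
    (MulEquiv.surjective _)

end CfsgLib.ReeFourMult
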