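import Cfsg.Agent.Lib.ReeFourMult.TwoPart
import Cfsg.Agent.Lib.Twisted.TorusCounts
import Cfsg.Agent.Lib.Twisted.TwistedBN

/-!
The torus of `²F₄(q)` in the coordinates of the two characters at the orbits of height four, and the action of the
two distinguished involutions.
-/

set_option autoImplicit false
set_option maxRecDepth 100000
set_option linter.unusedSectionVars false

namespace CfsgLib.ReeFourMult

open Cfsg.Lie
open CfsgLib.Chevalley hiding xG_mem_group rootsU_le_group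
open CfsgLib.Twisted (fullF4 KeepsOut keepsOut_wPerm Acts_isNeg_subPos nodeSet FixedPts subPos)
open CfsgLib.TwistedAut (torT torChar torChar_eq torChar_conj exists_crd_of_torT)
open CfsgLib.OutAut.F4Pair (full X)
open CfsgLib.ReeFourInvolutions (Setting o1 o2 o3 o4 o5 o6 o7 o8 wA wB)

/-- the word of the monomial element of the pair orbit -/
def wlA : List (Fin chevF4.rank) := [⟨0, by decide⟩, ⟨3, by decide⟩]

theorem nodes_ok : (∀ a ∈ wlA, (a : ℕ) ∈ [0, 3]) ∧ (∀ a ∈ wlB, (a : ℕ) ∈ [1, 2]) ∧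
    (∀ j : Fin chevF4.rank, ((j : ℕ) ∈ [0, 3] → chevF4.IsNegRoot (wPerm fullF4.cert wlA (smp fullF4.cert j))) ∧
      ((j : ℕ) ∈ [1, 2] → chevF4.IsNegRoot (wPerm fullF4.cert wlB (smp fullF4.cert j))) ∧
      chevF4.IsPosRoot (((wPerm fullF4.cert wlA * wPerm fullF4.cert wlB) ^ 8) (smp fullF4.cert j))) := by
  decide +kernel

theorem perm_heads : ∀ r : Fin chevF4.nroots,
    ((r : ℕ) = 32 → ((wPerm fullF4.cert wlA r : Fin chevF4.nroots) : ℕ) = 43) ∧
    ((r : ℕ) = 45 → ((wPerm fullF4.cert wlA r : Fin chevF4.nroots) : ℕ) = 45 ∧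
      ((wPerm fullF4.cert wlB r : Fin chevF4.nroots) : ℕ) = 43) ∧
    ((r : ℕ) = 43 → ((wPerm fullF4.cert wlB r : Fin chevF4.nroots) : ℕ) = 45) := by
  decide +kernel

variable {K : Type*} [Field K] [Fintype K] [CharP K 2] {σ : K →+* K} {m : ℕ} (S : Setting σ m)

theorem wA_eq : (wA : GL chevF4.Idx K) = nW fullF4.cert K wlA := by
  simp [wA, wlA, nW_cons, nW_nil, show chevF4.simple 0 = 33 from rfl, show chevF4.simple 3 = 24 from rfl]

include S

/-- the involution of the pair orbit -/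
noncomputable def sA : ↥(twistedF4 K (2 ^ m)) := ⟨wA, S.wA_mem⟩

/-- the involution of the orbit of type B₂ -/
noncomputable def sB : ↥(twistedF4 K (2 ^ m)) := ⟨wB, S.wB_mem⟩

theorem isRep_wA : FixedPts.IsRep fullF4 (twistedF4 K (2 ^ m)) (nodeSet chevF4 [0, 3]) (wA : GL chevF4.Idx K) := by
  obtain ⟨η, hη⟩ := acts_nW (F := K) fullF4 wlA
  refine ⟨S.wA_mem, by rw [wA_eq]; exact nW_mem_monomial fullF4 _, wPerm fullF4.cert wlA, η,
    by rw [wA_eq]; exact hη, keepsOut_wPerm fullF4 _ fun a ha => nodes_ok.1 a ha, fun r hr => ?_⟩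
  exact Acts_isNeg_subPos fullF4 hη (fun j hj => (nodes_ok.2.2 j).1 hj) hr

theorem isRep_wB : FixedPts.IsRep fullF4 (twistedF4 K (2 ^ m)) (nodeSet chevF4 [1, 2]) (wB : GL chevF4.Idx K) := by
  obtain ⟨η, hη⟩ := acts_nW (F := K) fullF4 wlB
  refine ⟨S.wB_mem, by rw [wB_eq]; exact nW_mem_monomial fullF4 _, wPerm fullF4.cert wlB, η,
    by rw [wB_eq]; exact hη, keepsOut_wPerm fullF4 _ fun a ha => nodes_ok.2.1 a ha, fun r hr => ?_⟩
  exact Acts_isNeg_subPos fullF4 hη (fun j hj => (nodes_ok.2.2 j).2.1 hj) hr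

theorem tor_conj {n : ↥(twistedF4 K (2 ^ m))} (hn : (n : GL chevF4.Idx K) ∈ chevF4.monomialSubgroup K)
    {τ : ↥(twistedF4 K (2 ^ m))} (hτ : τ ∈ torT (twistedF4 K (2 ^ m))) :
    n * τ * n⁻¹ ∈ torT (twistedF4 K (2 ^ m)) :=
  monomial_conj_diagonal fullF4 hn hτ

theorem sA_conj_mem {τ : ↥(twistedF4 K (2 ^ m))} (hτ : τ ∈ torT (twistedF4 K (2 ^ m))) :
    sA S * τ * (sA S)⁻¹ ∈ torT (twistedF4 K (2 ^ m)) :=
  tor_conj S (isRep_wA S).2.1 hτ

theorem sB_conj_mem {τ : ↥(twistedF4 K (2 ^ m))} (hτ : τ ∈ torT (twistedF4 K (2 ^ m))) :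
    sB S * τ * (sB S)⁻¹ ∈ torT (twistedF4 K (2 ^ m)) :=
  tor_conj S (isRep_wB S).2.1 hτ

theorem lchar_sA {τ : ↥(twistedF4 K (2 ^ m))} (hτ : τ ∈ torT (twistedF4 K (2 ^ m))) :
    lchar K m 8 (sA S * τ * (sA S)⁻¹) = lchar K m 6 τ ∧ lchar K m 9 (sA S * τ * (sA S)⁻¹) = lchar K m 9 τ := by
  obtain ⟨η, hη⟩ := acts_nW (F := K) fullF4 wlA
  rw [← wA_eq] at hη
  have h : ∀ r : Fin chevF4.nroots, torChar (twistedF4 K (2 ^ m))
      ((wPerm fullF4.cert wlA r : Fin chevF4.nroots) : ℕ) (sA S * τ * (sA S)⁻¹) =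
      torChar (twistedF4 K (2 ^ m)) (r : ℕ) τ :=
    fun r => torChar_conj (n := sA S) fullF4 (isRep_wA S).2.1 hη hτ r
  constructor
  · have := h ⟨32, by decide +kernel⟩
    rwa [(perm_heads ⟨32, by decide +kernel⟩).1 rfl] at this
  · have := h ⟨45, by decide +kernel⟩
    rwa [((perm_heads ⟨45, by decide +kernel⟩).2.1 rfl).1] at this

theorem lchar_sB {τ : ↥(twistedF4 K (2 ^ m))} (hτ : τ ∈ torT (twistedF4 K (2 ^ m))) :
    lchar K m 8 (sB S * τ * (sB S)⁻¹) = lchar K m 9 τ ∧ lchar K m 9 (sB S * τ * (sB S)⁻¹) = lchar K m 8 τ := by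
  obtain ⟨η, hη⟩ := acts_nW (F := K) fullF4 wlB
  rw [← wB_eq] at hη
  have h : ∀ r : Fin chevF4.nroots, torChar (twistedF4 K (2 ^ m))
      ((wPerm fullF4.cert wlB r : Fin chevF4.nroots) : ℕ) (sB S * τ * (sB S)⁻¹) =
      torChar (twistedF4 K (2 ^ m)) (r : ℕ) τ :=
    fun r => torChar_conj (n := sB S) fullF4 (isRep_wB S).2.1 hη hτ r
  constructor
  · have := h ⟨45, by decide +kernel⟩
    rwa [((perm_heads ⟨45, by decide +kernel⟩).2.1 rfl).2] at this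
  · have := h ⟨43, by decide +kernel⟩
    rwa [(perm_heads ⟨43, by decide +kernel⟩).2.2 rfl] at this

omit S in
/-- twice the exponent of the field automorphism -/
abbrev A2 (m : ℕ) : ℕ := 2 * 2 ^ m

/-- Parameters of a torus element. -/
def IsPar (τ : ↥(twistedF4 K (2 ^ m))) (z w : Kˣ) : Prop :=
  τ ∈ torT (twistedF4 K (2 ^ m)) ∧ ∀ k < 12, lchar K m k τ = ((z ^ expE m k * w ^ expF m k : Kˣ) : K)

theorem pow_A2_A2 (x : Kˣ) : (x ^ A2 m) ^ A2 m = x ^ 2 := by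
  refine Units.ext ?_
  have h1 : (x : K) ^ Fintype.card K = x := FiniteField.pow_card _
  rw [← Nat.card_eq_fintype_card, S.card] at h1
  rw [← pow_mul, Units.val_pow_eq_pow_val, Units.val_pow_eq_pow_val,
    show A2 m * A2 m = 2 ^ (2 * m + 1) * 2 by simp only [A2]; ring, pow_mul, h1]

theorem A2_bijective : Function.Bijective fun x : Kˣ => x ^ A2 m := by
  refine Finite.injective_iff_bijective.1 fun x y h => ?_
  have h2 : x ^ 2 = y ^ 2 := by rw [← pow_A2_A2 S x, ← pow_A2_A2 S y]; exact congrArg (· ^ A2 m) h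
  have h3 : ((x : K)) ^ 2 = (y : K) ^ 2 := by
    simpa only [← Units.val_pow_eq_pow_val] using congrArg Units.val h2
  exact Units.ext (CharTwo.sq_injective h3)

theorem IsPar.eight {τ : ↥(twistedF4 K (2 ^ m))} {z w : Kˣ} (h : IsPar τ z w) :
    lchar K m 8 τ = ((z ^ A2 m : Kˣ) : K) ∧ lchar K m 9 τ = ((w ^ A2 m : Kˣ) : K) := by
  have hA : ((A2 m : ℕ) : ℤ) = 2 * 2 ^ m := by simp [A2]
  constructor
  · rw [h.2 8 (by norm_num)]
    congr 1
    rw [show expE m 8 = ((A2 m : ℕ) : ℤ) by rw [hA]; simp [expE, expTab]; ring,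
      show expF m 8 = 0 by simp [expF, expTab], zpow_natCast, zpow_zero, mul_one]
  · rw [h.2 9 (by norm_num)]
    congr 1
    rw [show expF m 9 = ((A2 m : ℕ) : ℤ) by rw [hA]; simp [expF, expTab]; ring,
      show expE m 9 = 0 by simp [expE, expTab], zpow_natCast, zpow_zero, one_mul]

theorem card_torT : Nat.card (torT (twistedF4 K (2 ^ m))) = (2 ^ (2 * m + 1) - 1) ^ 2 := by
  have hK : Fintype.card K = 2 ^ (2 * m + 1) := by rw [← Nat.card_eq_fintype_card]; exact S.card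
  rw [← CfsgLib.Twisted.card_torusF4 hK, torT, ← Subgroup.inf_subgroupOf_right]
  exact Nat.card_congr (Subgroup.subgroupOfEquivOfLe inf_le_right).toEquiv

theorem exists_par (z w : Kˣ) : ∃ τ, IsPar (m := m) τ z w := exists_torus S z w

theorem exists_par_of_mem {τ : ↥(twistedF4 K (2 ^ m))} (hτ : τ ∈ torT (twistedF4 K (2 ^ m))) :
    ∃ z w, IsPar τ z w := by
  classical
  choose Φ hΦ using fun p : Kˣ × Kˣ => exists_par S p.1 p.2
  let Ψ : Kˣ × Kˣ → torT (twistedF4 K (2 ^ m)) := fun p => ⟨Φ p, (hΦ p).1⟩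
  have hinj : Function.Injective Ψ := by
    intro p q e
    have e' : Φ p = Φ q := congrArg Subtype.val e
    have h1 := (hΦ p).eight S
    have h2 := (hΦ q).eight S
    rw [e', h2.1, h2.2] at h1
    exact Prod.ext ((A2_bijective S).1 (Units.ext h1.1.symm)) ((A2_bijective S).1 (Units.ext h1.2.symm))
  have hbij : Function.Bijective Ψ := by
    refine (Nat.bijective_iff_injective_and_card Ψ).2 ⟨hinj, ?_⟩
    rw [card_torT S, Nat.card_prod, Nat.card_units, S.card, pow_two]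
  obtain ⟨p, hp⟩ := hbij.2 ⟨τ, hτ⟩
  have e : Φ p = τ := congrArg Subtype.val hp
  exact ⟨p.1, p.2, e ▸ hΦ p⟩

theorem IsPar.unique {τ τ' : ↥(twistedF4 K (2 ^ m))} {z w : Kˣ} (h : IsPar τ z w) (h' : IsPar τ' z w) :
    τ = τ' := by
  classical
  choose Φ hΦ using fun p : Kˣ × Kˣ => exists_par S p.1 p.2
  have key : ∀ {τ : ↥(twistedF4 K (2 ^ m))} {z w : Kˣ}, IsPar τ z w → τ = Φ (z, w) := by
    intro τ z w h
    let Ψ : Kˣ × Kˣ → torT (twistedF4 K (2 ^ m)) := fun p => ⟨Φ p, (hΦ p).1⟩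
    have hinj : Function.Injective Ψ := by
      intro p q e
      have e' : Φ p = Φ q := congrArg Subtype.val e
      have h1 := (hΦ p).eight S
      have h2 := (hΦ q).eight S
      rw [e', h2.1, h2.2] at h1
      exact Prod.ext ((A2_bijective S).1 (Units.ext h1.1.symm)) ((A2_bijective S).1 (Units.ext h1.2.symm))
    have hbij : Function.Bijective Ψ := by
      refine (Nat.bijective_iff_injective_and_card Ψ).2 ⟨hinj, ?_⟩
      rw [card_torT S, Nat.card_prod, Nat.card_units, S.card, pow_two]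
    obtain ⟨p, hp⟩ := hbij.2 ⟨τ, h.1⟩
    have e : Φ p = τ := congrArg Subtype.val hp
    have h1 := h.eight S
    have h2 := (hΦ p).eight S
    rw [e, h1.1, h1.2] at h2
    have ez : z = p.1 := (A2_bijective S).1 (Units.ext h2.1)
    have ew : w = p.2 := (A2_bijective S).1 (Units.ext h2.2)
    rw [← e, ez, ew]
  exact (key h).trans (key h').symm

theorem IsPar.of_eight {τ : ↥(twistedF4 K (2 ^ m))} (hτ : τ ∈ torT (twistedF4 K (2 ^ m))) {z w : Kˣ}
    (h8 : lchar K m 8 τ = ((z ^ A2 m : Kˣ) : K)) (h9 : lchar K m 9 τ = ((w ^ A2 m : Kˣ) : K)) :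
    IsPar τ z w := by
  obtain ⟨z', w', h⟩ := exists_par_of_mem S hτ
  obtain ⟨a, b⟩ := h.eight S
  obtain rfl : z' = z := (A2_bijective S).1 (Units.ext (a.symm.trans h8))
  obtain rfl : w' = w := (A2_bijective S).1 (Units.ext (b.symm.trans h9))
  exact h

theorem isPar_one : IsPar (1 : ↥(twistedF4 K (2 ^ m))) 1 1 := by
  obtain ⟨z, w, h⟩ := exists_par_of_mem S (one_mem (torT (twistedF4 K (2 ^ m))))
  obtain ⟨a, b⟩ := h.eight S
  have h1 : ∀ k < 12, lchar K m k (1 : ↥(twistedF4 K (2 ^ m))) = 1 := by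
    intro k hk
    have hlt : headRt k < chevF4.nroots := by rw [← orb_fst hk]; exact (orb_spec hk).2.2.2
    rw [lchar, torChar_eq hlt (c := 1) (by rw [map_one]; rfl)]
    simp [chi]
  refine IsPar.of_eight S (one_mem _) ?_ ?_ <;> rw [h1 _ (by norm_num), one_pow, Units.val_one]

theorem IsPar.mul {τ τ' : ↥(twistedF4 K (2 ^ m))} {z w z' w' : Kˣ} (h : IsPar τ z w) (h' : IsPar τ' z' w') :
    IsPar (τ * τ') (z * z') (w * w') := by
  refine ⟨mul_mem h.1 h'.1, fun k hk => ?_⟩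
  have hlt : headRt k < chevF4.nroots := by rw [← orb_fst hk]; exact (orb_spec hk).2.2.2
  rw [lchar, CfsgLib.TwistedAut.torChar_mul fullF4 hlt h.1 h'.1, ← lchar, h.2 k hk,
    h'.2 k hk, ← Units.val_mul]
  congr 1
  rw [mul_zpow, mul_zpow, mul_mul_mul_comm]

theorem IsPar.inv {τ : ↥(twistedF4 K (2 ^ m))} {z w : Kˣ} (h : IsPar τ z w) : IsPar τ⁻¹ z⁻¹ w⁻¹ := by
  obtain ⟨z', w', h'⟩ := exists_par_of_mem S (inv_mem h.1)
  have h1 := h.mul S h'
  rw [mul_inv_cancel] at h1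
  obtain ⟨a, b⟩ := h1.eight S
  obtain ⟨a', b'⟩ := (isPar_one S).eight S
  have ez : z * z' = 1 := (A2_bijective S).1 (Units.ext (a.symm.trans a'))
  have ew : w * w' = 1 := (A2_bijective S).1 (Units.ext (b.symm.trans b'))
  rwa [eq_inv_of_mul_eq_one_right ez, eq_inv_of_mul_eq_one_right ew] at h'

theorem IsPar.pow {τ : ↥(twistedF4 K (2 ^ m))} {z w : Kˣ} (h : IsPar τ z w) (i : ℕ) :
    IsPar (τ ^ i) (z ^ i) (w ^ i) := by
  induction i with
  | zero => simpa using isPar_one S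
  | succ i ih => rw [pow_succ, pow_succ, pow_succ]; exact ih.mul S h

theorem IsPar.sB {τ : ↥(twistedF4 K (2 ^ m))} {z w : Kˣ} (h : IsPar τ z w) :
    IsPar (ReeFourMult.sB S * τ * (ReeFourMult.sB S)⁻¹) w z := by
  obtain ⟨a, b⟩ := h.eight S
  obtain ⟨c, d⟩ := lchar_sB S h.1
  exact IsPar.of_eight S (sB_conj_mem S h.1) (c.trans b) (d.trans a)

theorem IsPar.sA {τ : ↥(twistedF4 K (2 ^ m))} {z w : Kˣ} (h : IsPar τ z w) :
    IsPar (ReeFourMult.sA S * τ * (ReeFourMult.sA S)⁻¹) (z⁻¹ * w ^ A2 m) w := by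
  obtain ⟨-, b⟩ := h.eight S
  obtain ⟨c, d⟩ := lchar_sA S h.1
  refine IsPar.of_eight S (sA_conj_mem S h.1) (c.trans ?_) (d.trans b)
  rw [h.2 6 (by norm_num)]
  congr 1
  rw [mul_pow, pow_A2_A2 S w, inv_pow, show expE m 6 = -((A2 m : ℕ) : ℤ) by simp [expE, expTab, A2]; ring,
    show expF m 6 = ((2 : ℕ) : ℤ) by simp [expF, expTab], zpow_neg, zpow_natCast, zpow_natCast]

theorem conj_sA_sB {τ : ↥(twistedF4 K (2 ^ m))} {z w : Kˣ} (h : IsPar τ z w) :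
    IsPar (ReeFourMult.sA S * ReeFourMult.sB S * τ * (ReeFourMult.sA S * ReeFourMult.sB S)⁻¹)
      (w⁻¹ * z ^ A2 m) z := by
  have := (h.sB S).sA S
  rw [show ReeFourMult.sA S * ReeFourMult.sB S * τ * (ReeFourMult.sA S * ReeFourMult.sB S)⁻¹ =
    ReeFourMult.sA S * (ReeFourMult.sB S * τ * (ReeFourMult.sB S)⁻¹) * (ReeFourMult.sA S)⁻¹ by group]
  exact this

/-- the longest element inverts the torus -/
theorem longest_inverts {τ : ↥(twistedF4 K (2 ^ m))} (hτ : τ ∈ torT (twistedF4 K (2 ^ m))) :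
    (sA S * sB S) ^ 4 * τ * ((sA S * sB S) ^ 4)⁻¹ = τ⁻¹ := by
  obtain ⟨z, w, h⟩ := exists_par_of_mem S hτ
  set r := sA S * sB S
  have h4 := conj_sA_sB S (conj_sA_sB S (conj_sA_sB S (conj_sA_sB S h)))
  have e0 : r * (r * (r * (r * τ * r⁻¹) * r⁻¹) * r⁻¹) * r⁻¹ = r ^ 4 * τ * (r ^ 4)⁻¹ := by
    simp only [pow_succ, pow_zero, one_mul, mul_inv_rev, mul_assoc]
  rw [← e0]
  change IsPar (r * (r * (r * (r * τ * r⁻¹) * r⁻¹) * r⁻¹) * r⁻¹) _ _ at h4
  refine IsPar.unique S h4 ?_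
  have key := h.inv S
  have e1 : ((w⁻¹ * z ^ A2 m) ^ A2 m : Kˣ) = w⁻¹ ^ A2 m * z ^ 2 := by rw [mul_pow, pow_A2_A2 S]
  have e2 : z⁻¹ * (w⁻¹ ^ A2 m * z ^ 2) = z * w⁻¹ ^ A2 m := by
    rw [mul_left_comm, pow_two, inv_mul_cancel_left, mul_comm]
  have e3 : (w⁻¹ * z ^ A2 m)⁻¹ * (z * w⁻¹ ^ A2 m) ^ A2 m = w⁻¹ := by
    rw [mul_pow, pow_A2_A2 S, mul_inv_rev, inv_inv, mul_comm (z ^ A2 m) (w⁻¹ ^ 2), mul_assoc,
      mul_comm w, ← mul_assoc, ← mul_assoc, mul_comm (z ^ A2 m)⁻¹, mul_assoc (w⁻¹ ^ 2), inv_mul_cancel,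
      mul_one, pow_two, inv_mul_cancel_right]
  have e4 : (z * w⁻¹ ^ A2 m)⁻¹ * w⁻¹ ^ A2 m = z⁻¹ := by
    rw [mul_inv_rev, mul_right_comm, inv_mul_cancel, one_mul]
  rw [e1, e2, e3, e4]
  exact key

theorem eq_one_of_commute {g : ↥(twistedF4 K (2 ^ m))} (hg : g ∈ torT (twistedF4 K (2 ^ m)))
    (h8 : g * repG S 8 1 * g⁻¹ = repG S 8 1) (h9 : g * repG S 9 1 * g⁻¹ = repG S 9 1) : g = 1 := by
  have H := chain S
  have hk : ∀ k, k < 12 → g * repG S k 1 * g⁻¹ = repG S k 1 → lchar K m k g = 1 := by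
    intro k hk e
    have := (H.scale k hk g hg _ (repG_head S hk 1).1).2
    rw [e, (repG_head S hk 1).2, mul_one] at this
    exact this.symm
  refine IsPar.unique S (IsPar.of_eight S hg ?_ ?_) (isPar_one S) <;>
    rw [one_pow, Units.val_one]
  exacts [hk 8 (by norm_num) h8, hk 9 (by norm_num) h9]

theorem sA_mul_self : sA S * sA S = 1 := by
  have h : ∀ k k', wA * rep σ k 1 * wA⁻¹ = rep σ k' 1 → sA S * repG S k 1 * (sA S)⁻¹ = repG S k' 1 :=
    fun k k' e => conj_rep S k k' ⟨wA, S.wA_mem⟩ e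
  refine eq_one_of_commute S (isRep_wA S).sq ?_ ?_
  · rw [show sA S * sA S * repG S 8 1 * (sA S * sA S)⁻¹ =
      sA S * (sA S * repG S 8 1 * (sA S)⁻¹) * (sA S)⁻¹ by group,
      h 8 6 (ReeFourInvolutions.wA_o3 σ 1), h 6 8 (ReeFourInvolutions.wA_o7 σ 1)]
  · rw [show sA S * sA S * repG S 9 1 * (sA S * sA S)⁻¹ =
      sA S * (sA S * repG S 9 1 * (sA S)⁻¹) * (sA S)⁻¹ by group,
      h 9 9 (ReeFourInvolutions.wA_o5 σ 1), h 9 9 (ReeFourInvolutions.wA_o5 σ 1)]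

theorem sB_mul_self : sB S * sB S = 1 := by
  have h : ∀ k k', wB * rep σ k 1 * wB⁻¹ = rep σ k' 1 → sB S * repG S k 1 * (sB S)⁻¹ = repG S k' 1 :=
    fun k k' e => conj_rep S k k' ⟨wB, S.wB_mem⟩ e
  refine eq_one_of_commute S (isRep_wB S).sq ?_ ?_
  · rw [show sB S * sB S * repG S 8 1 * (sB S * sB S)⁻¹ =
      sB S * (sB S * repG S 8 1 * (sB S)⁻¹) * (sB S)⁻¹ by group,
      h 8 9 (ReeFourInvolutions.wB_o3 σ 1), h 9 8 (ReeFourInvolutions.wB_o5 σ 1)]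
  · rw [show sB S * sB S * repG S 9 1 * (sB S * sB S)⁻¹ =
      sB S * (sB S * repG S 9 1 * (sB S)⁻¹) * (sB S)⁻¹ by group,
      h 9 8 (ReeFourInvolutions.wB_o5 σ 1), h 8 9 (ReeFourInvolutions.wB_o3 σ 1)]

theorem odd_torT : Odd (Nat.card (torT (twistedF4 K (2 ^ m)))) := by
  rw [card_torT S]
  exact (Nat.Even.sub_odd (Nat.one_le_two_pow) (Nat.even_pow.2 ⟨even_two, by omega⟩) odd_one).pow

theorem braid : (sA S * sB S) ^ 8 = 1 := by
  obtain ⟨η, hη⟩ := acts_nW (F := K) fullF4 wlA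
  obtain ⟨θ, hθ⟩ := acts_nW (F := K) fullF4 wlB
  rw [← wA_eq] at hη
  rw [← wB_eq] at hθ
  have hacts : ∀ i : ℕ, ∃ μ, Acts fullF4.cert (((wA : GL chevF4.Idx K) * wB) ^ i)
      ((wPerm fullF4.cert wlA * wPerm fullF4.cert wlB) ^ i) μ := by
    intro i
    induction i with
    | zero => exact ⟨_, by rw [pow_zero, pow_zero]; exact acts_one fullF4.cert⟩
    | succ i ih =>
      obtain ⟨μ, hμ⟩ := ih
      exact ⟨_, by rw [pow_succ, pow_succ]; exact hμ.mul (hη.mul hθ)⟩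
  obtain ⟨μ, hμ⟩ := hacts 8
  have hd : (sA S * sB S) ^ 8 ∈ torT (twistedF4 K (2 ^ m)) :=
    mem_diagonal_of_perm fullF4
      (pow_mem (mul_mem (isRep_wA S).2.1 (isRep_wB S).2.1) 8 :
        ((wA : GL chevF4.Idx K) * wB) ^ 8 ∈ chevF4.monomialSubgroup K) hμ
      fun i => (nodes_ok.2.2 i).2.2
  set r := sA S * sB S
  have h1 := longest_inverts S hd
  rw [show r ^ 4 * r ^ 8 * (r ^ 4)⁻¹ = r ^ 8 by group] at h1
  have h2 : orderOf (⟨r ^ 8, hd⟩ : torT (twistedF4 K (2 ^ m))) ∣ 2 :=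
    orderOf_dvd_of_pow_eq_one (Subtype.ext (by
      rw [Subgroup.coe_pow, pow_two]; show r ^ 8 * r ^ 8 = 1; nth_rw 2 [h1]; exact mul_inv_cancel _))
  exact congrArg Subtype.val (orderOf_eq_one_iff.1
    (Nat.eq_one_of_dvd_coprimes (Nat.coprime_two_left.2 (odd_torT S)) h2 (orderOf_dvd_natCard _)))

theorem torT_le_closure : ∃ a ∈ torT (twistedF4 K (2 ^ m)),
    torT (twistedF4 K (2 ^ m)) ≤ Subgroup.closure {a, sB S * a * sB S} := by
  obtain ⟨g, hg⟩ := IsCyclic.exists_generator (α := Kˣ)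
  obtain ⟨a, ha⟩ := exists_par S g 1
  refine ⟨a, ha.1, fun τ hτ => ?_⟩
  obtain ⟨z, w, h⟩ := exists_par_of_mem S hτ
  obtain ⟨i, hi⟩ := mem_powers_iff_mem_zpowers.2 (hg z)
  obtain ⟨j, hj⟩ := mem_powers_iff_mem_zpowers.2 (hg w)
  have hb := (ha.sB S).pow S j
  have ht := (ha.pow S i).mul S hb
  simp only at hi hj
  rw [one_pow, mul_one, one_pow, one_mul, hi, hj] at ht
  rw [h.unique S ht, inv_eq_of_mul_eq_one_right (sB_mul_self S)]
  exact mul_mem (pow_mem (Subgroup.subset_closure (by simp)) _) (pow_mem (Subgroup.subset_closure (by simp)) _)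

end CfsgLib.ReeFourMult
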